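import Cfsg.Agent.TwM.Inst

set_option autoImplicit false

/-! The `p`-part of the multiplier of `²E₆(q)`, `q ≥ 3`. -/

namespace Cfsg.Agent.TwM

open Subgroup Cfsg.Agent.Cover Cfsg.Lie Cfsg.Lie.ChevalleyDatum Cfsg.Agent.Chev Cfsg.Agent.Tw Equiv
open scoped commutatorElement

variable {E : Type*} [Group E] {F : Type*} [Field F] {φ : F ≃+* F} {θ : E →* chevE6.group F}
  {K : Subgroup (chevE6.group F)} {q : ℕ}

/-- the functional -/
def fE : (Nd chevE6 → ℤ) →ₗ[ℤ] ℤ := wf chevE6 [1001, 1003, 1009, 1027, 1081, 1243]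

theorem admE : Adm (stbE6 φ) fE := by
  change (∀ r s, fE (certE6.rc r) = fE (certE6.rc s) → r = s) ∧ (∀ i, 0 < fE (certE6.rc (certE6.sp i))) ∧
    ∀ r, 0 < fE (certE6.rc r) → ∀ s, fE (certE6.rc r) ≤ fE (certE6.rc s) →
      fE (certE6.rc (symE6.ρ r)) < 2 * fE (certE6.rc (symE6.ρ s)) ∧ fE (certE6.rc (symE6.ρi r)) < 2 * fE (certE6.rc (symE6.ρi s))
  decide +kernel

/-- short live roots -/
abbrev lE1 : List ℕ := [42, 43, 50, 56, 57, 58, 59, 61, 62, 64, 67, 68]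
/-- long live roots -/
abbrev lE2 : List ℕ := [39, 44, 46, 47, 51, 53, 60, 63, 65, 69, 70, 71]

theorem liveE (r : Rt chevE6) : Live (stbE6 φ) fE r ↔ (r : ℕ) ∈ lE1 ++ lE2 := by
  revert r
  change ∀ r, 0 < fE (certE6.rc r) ∧ fE (certE6.rc r) ≤ fE (certE6.rc (symE6.ρ r)) ∧
    fE (certE6.rc r) ≤ fE (certE6.rc (symE6.ρi r)) ↔ _
  decide +kernel

/-- fast pairing -/
noncomputable abbrev aE (r s : Rt chevE6) : ℤ := fpair 6 coE6 caE6 r s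

theorem aE_eq (r s : Rt chevE6) : certE6.A r s = aE r s := (fpair_eq dataOKE6 r s r.2 s.2).symm

theorem torE (h : Stem K θ) (hK : (stbE6 φ).Good K) (hφ : ∀ t, φ t = t ^ q) (h3 : ∀ t, φ (φ t) = t) (γ : Rt chevE6) :
    Tor (certE6.sys F) θ fun s => aE γ s + q * aE γ (symE6.ρ s) := by
  simp only [← aE_eq]
  exact tor2 (T := stbE6 φ) (Q := fun _ => q) (certE6.sys_φ_inj F) h (fun _ _ => fixE6 hK h3)
    (by change ∀ r, symE6.ρ (symE6.ρ r) = r; decide +kernel) (fun _ => h3) (fun _ => hφ) γ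

/-- small exponents -/
abbrev smE (γ s : Rt chevE6) : Prop :=
  (aE γ s ≠ 0 ∨ aE γ (symE6.ρ s) ≠ 0) ∧ |aE γ s| ≤ 1 ∧ |aE γ (symE6.ρ s)| ≤ 1

theorem exE [Finite F] (hK : (stbE6 φ).Good K) (hφ : ∀ t, φ t = t ^ q) (hF : Nat.card F = q ^ 2) (i : Nd chevE6) :
    ∃ x ∈ K, x ∈ (certE6.sys F).U (Rp (stbE6 φ) i) ∧ x ≠ 1 :=
  ex_of_card (d := 1) (n := q) ((Nat.one_lt_pow_iff two_ne_zero).1 (hF ▸ Finite.one_lt_card))
    (fun _ hw e => by rw [pow_one, cardUw_E6 hK hφ hF hw e]) i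

theorem sepE_short [Finite F] (p : ℕ) [Fact p.Prime] [CharP F p] (h : Stem K θ) (hK : (stbE6 φ).Good K)
    (hφ : ∀ t, φ t = t ^ q) (hF : Nat.card F = q ^ 2) (hq : 3 ≤ q) {r : Rt chevE6} (hr : (r : ℕ) ∈ lE1) :
    Sep (certE6.sys F) θ p r r := by
  obtain ⟨γ, h1⟩ : ∃ γ, aE γ r = 1 ∧ aE γ (symE6.ρ r) = 0 := by revert r; decide +kernel
  refine (torE h hK hφ (frob2 hφ hF) γ).sep fun k => ?_
  obtain ⟨n, hn, e⟩ := Sys.exists_card_pow F p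
  obtain ⟨a, -, rfl⟩ := (Nat.dvd_prime_pow Fact.out).1 (show q ∣ p ^ n by rw [← e, hF]; exact dvd_pow_self q two_ne_zero)
  have hp := (Fact.out : p.Prime).two_le
  obtain rfl : n = a * 2 := Nat.pow_right_injective hp (e.symm.trans (hF.trans (pow_mul _ _ _).symm))
  obtain ⟨t, ht⟩ := exists_pow_sum_ne hp e [k, 0] (by simp) (by
    rcases hp.eq_or_lt with rfl | h2
    · have : a ≠ 1 := by rintro rfl; omega
      simp; omega
    · simp; nlinarith [show 2 ≤ p - 1 by omega, show 1 ≤ a by omega])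
  exact ⟨t, by rw [← zpow_natCast] at ht; simpa [h1] using ht⟩

theorem pairE_long (p : ℕ) (h : Stem K θ) (hK : (stbE6 φ).Good K) (h3 : ∀ t, φ (φ t) = t) (Q : Rt chevE6 → Subgroup E)
    {r : Rt chevE6} (hr : (r : ℕ) ∈ lE2) : PairOK (certE6.sys F) θ fE p Q r r := by
  have : ∃ a, symE6.ρ a = a ∧ ∃ b, symE6.ρ b = b ∧ Long r a b ∧ symE6.ρ r = r ∧ (symE6.ε r = 1 ∧ symE6.ε a = 1 ∧ symE6.ε b = 1) ∧
    0 < fE (certE6.rc r) := by revert r; decide +kernel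
  obtain ⟨a, ha, b, hb, h1, h2, h4, h5⟩ := this
  have e : ∀ r, symE6.ε r = 1 → (stbE6 φ).e r = 1 := fun r h => Units.ext ((congrArg (Int.cast : ℤ → F) h).trans Int.cast_one)
  exact pairOK_self (admE.covers_fix h hK h5 h2) (h1.abel h (fun g => ⟨hK.fix g, fixE6 hK h3⟩) ⟨h2, ha, hb⟩
    ⟨e _ h4.1, e _ h4.2.1, e _ h4.2.2⟩ rfl)

theorem pairE : ∀ r : Rt chevE6, (r : ℕ) ∈ lE1 ++ lE2 → ∀ s : Rt chevE6, (s : ℕ) ∈ lE1 ++ lE2 →
    r = s ∨ ∃ γ, (aE γ r = 0 ∧ aE γ (symE6.ρ r) = 0) ∧ smE γ s := by decide +kernel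

theorem kerE_p [Finite F] [Finite E] (p : ℕ) [Fact p.Prime] [CharP F p] (h : Stem K θ) (hK : (stbE6 φ).Good K)
    (hφ : ∀ t, φ t = t ^ q) (hF : Nat.card F = q ^ 2) (hq : 3 ≤ q) (hp : IsPGroup p θ.ker) : θ.ker = ⊥ := by
  have h3 := frob2 hφ hF
  have t := torE h hK hφ h3
  have a : ∀ {γ s}, smE γ s → ¬ ((Nat.card F : ℤ) - 1) ∣ aE γ s + q * aE γ (symE6.ρ s) := fun h => by
    rw [hF, Nat.cast_pow]
    exact not_dvd_of_digits (by omega) h.1 (by nlinarith [h.2.1, h.2.2, show (3 : ℤ) ≤ q by omega])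
  refine h.ker_eq_bot_live p (certE6.sys_φ_inj F) hK (exE hK hφ hF) hp admE (fun _ => ⊥) (fun _ _ => rfl)
    (fun r hr => ?_) fun r s hr hs => ?_
  · obtain ⟨γ, hγ⟩ : ∃ γ, smE γ r := by rw [liveE] at hr; revert r; decide +kernel
    exact (t γ).root (a hγ)
  · rw [liveE] at hr hs
    obtain rfl | ⟨γ, h1, h2⟩ := pairE r hr s hs
    · exact (List.mem_append.1 hr).elim (fun h1 => Or.inl (sepE_short p h hK hφ hF hq h1)) (pairE_long p h hK h3 _)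
    · exact Or.inl ((t γ).sep_left (by simp [h1]) (a h2))

end Cfsg.Agent.TwM
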