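import Cfsg.Agent.TwM.Rk1
import Cfsg.Agent.TwM.E6a
import Cfsg.Agent.Lang.SC

set_option autoImplicit false

/-! The `p'`-part of the multiplier of `²E₆(q)` and the triple cover. -/

namespace Cfsg.Agent.TwM

open Subgroup Cfsg.Agent.Cover Cfsg.Lie Cfsg.Lie.ChevalleyDatum Cfsg.Agent.Chev Cfsg.Agent.Tw Equiv Cfsg.Agent.Stein
open scoped commutatorElement

universe u

theorem mult_of_prime {G : Type u} [Group G] {l : ℕ} [Fact l.Prime] {Γ : Type u} [Group Γ] [Finite Γ] {σ : Γ →* G}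
    (h : IsStemExtension σ) (h1 : Nat.card σ.ker = l)
    (h2 : ∀ (Γ : Type u) [Group Γ] [Finite Γ] (σ : Γ →* G), IsStemExtension σ → Nat.card σ.ker ∣ l) :
    HasCyclicSchurMultiplier G l := by
  have e : Nat.card (Multiplicative (ZMod l)) = l := by simp
  refine ⟨⟨Γ, _, ‹_›, σ, h, ⟨mulEquivOfPrimeCardEq h1 e⟩⟩, fun Γ' _ _ σ' h' => ?_⟩
  rcases (Nat.dvd_prime Fact.out).1 (h2 Γ' σ' h') with h3 | h3
  · exact ⟨1, fun x => ⟨1, (Nat.card_eq_one_iff_unique.1 h3).1.elim _ _⟩⟩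
  · exact ⟨(mulEquivOfPrimeCardEq e h3).toMonoidHom, (mulEquivOfPrimeCardEq e h3).surjective⟩

theorem h_mem_comm {k G : Type*} [Field k] [Finite k] [Group G] (L : SL2Sys k G) {A : Subgroup G} (hx : ∀ t, L.x t ∈ A)
    (hy : ∀ t, L.y t ∈ A) {c : k} (hc : c ^ 3 = 1) : L.h c ∈ ⁅A, A⁆ := by
  have h0 : c ≠ 0 := by rintro rfl; simp at hc
  have w : ∀ t, L.w t ∈ A := fun t => mul_mem (mul_mem (hx t) (hy _)) (hx t)
  have := commutator_mem_commutator (w 1) (mul_mem (w c) (w (-1)))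
  rwa [commutatorElement_def, ← SL2Sys.h, L.w_h h0, show c⁻¹ = c * c from (eq_inv_of_mul_eq_one_left (by
    rw [← hc]; ring)).symm, L.h_mul h0 h0, mul_inv_cancel_right] at this

section
variable {D : ChevalleyDatum} {C : Cert D} {F : Type*} [Field F] [Finite F]

omit [Finite F] in
theorem st_commute (C : Cert D) {G : Type*} [Group G] (S : StSys D F G) {r s : Rt D} (h : s ≠ r ∧ s ≠ r.rev ∧ D.commTerms r s = [])
    (t u : F) : Commute (S.x r t) (S.x s u) := by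
  have := S.comm r s t u r.2 s.2 (fun e => h.1 (Fin.ext e)) (fun e => h.2.1 (Fin.ext (e.trans (C.neg_val r))))
  rw [commWord_def, h.2.2] at this
  rw [commute_iff_eq, ← inv_mul_eq_one, mul_inv_rev, ← mul_assoc]; exact this

theorem sc_h_mem (hg : RGD.GenC D) {T : Stb (C.sys F)} {K : Subgroup (D.group F)} (hK : ∀ g, T.σ g = g → g ∈ K)
    (he : ∀ i, T.e (C.sp i) = 1) {i : Nd D} (h1 : ∀ r ∈ [C.sp i, (C.sp i).rev], ∀ s ∈ [C.sp (T.π i), (C.sp (T.π i)).rev],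
      s ≠ r ∧ s ≠ r.rev ∧ D.commTerms r s = []) (h2 : T.π (T.π i) = i)
    (h3 : ∀ t, T.f (C.sp (T.π i)) (T.f (C.sp i) t) = t) {c : Fˣ} (hc : c ^ 3 = 1) :
    (RGD.sc_isChev C hg).tau (Pi.mulSingle i c * Pi.mulSingle (T.π i) (T.fu (C.sp i) c)) ∈
      ⁅K.comap (RGD.mSys C F).lift, K.comap (RGD.mSys C F).lift⁆ := by
  simp only [List.forall_mem_cons] at h1
  have a := fun r s h => st_commute C (scSys D F) (r := r) (s := s) h
  have b := fun r s h t u => (st_commute C (RGD.mSys C F) (r := r) (s := s) h t u).eq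
  simp only [Lang.mSys_x] at b
  have d : ∀ (r : Rt D) t, (RGD.mSys C F).lift ((scSys D F).x r t) = (C.sys F).x r t := fun r t =>
    ((RGD.mSys C F).lift_x r t).trans (Lang.mSys_x C F r t)
  have h4 : (RGD.stSys_sl2 C hg (scSys D F) (C.sp i)).Comm
      ((RGD.stSys_sl2 C hg (scSys D F) (C.sp (T.π i))).tw (T.f (C.sp i) : F →+* F)) := fun t u =>
    ⟨a _ _ h1.1.1 _ _, a _ _ h1.1.2.1 _ _, a _ _ h1.2.1.1 _ _, a _ _ h1.2.1.2.1 _ _⟩
  have := h_mem_comm (SL2Sys.prod h4) (A := K.comap (RGD.mSys C F).lift) (fun t => hK _ (by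
      change T.σ ((RGD.mSys C F).lift ((scSys D F).x _ _ * (scSys D F).x _ _)) = (RGD.mSys C F).lift ((scSys D F).x _ _ * (scSys D F).x _ _)
      simp only [map_mul, d, RingHom.coe_coe, σ_sp he, h2, h3, b _ _ h1.1.1]))
    (fun t => hK _ (by
      change T.σ ((RGD.mSys C F).lift ((scSys D F).x _ _ * (scSys D F).x _ _)) = (RGD.mSys C F).lift ((scSys D F).x _ _ * (scSys D F).x _ _)
      simp only [map_mul, d, RingHom.coe_coe, σ_sp he, h2, h3, b _ _ h1.2.1.2.1]))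
    (c := c) (by rw [← Units.val_pow_eq_pow_val, hc, Units.val_one])
  rw [SL2Sys.prod_h, SL2Sys.tw_h] at this
  rw [map_mul, RGD.IsChev0.tau_single, RGD.IsChev0.tau_single]
  exact this

end

variable {E : Type*} [Group E] {F : Type u} [Field F] {φ : F ≃+* F} {θ : E →* chevE6.group F}
  {K : Subgroup (chevE6.group F)} {p : ℕ}

/-- nodes -/
abbrev nE (k : ℕ) (h : k < 6 := by decide) : Nd chevE6 := ⟨k, h⟩

theorem kerE_cop [Finite F] [Fact p.Prime] [CharP F p] (h : Cop (stbE6 φ) θ p K) (h3 : ∀ t, φ (φ t) = t) :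
    ∃ χ ψ : Fˣ →* E, ∀ z ∈ θ.ker, ∃ s : Fˣ, s ^ 3 = 1 ∧ s * φ s = 1 ∧ z = χ s * ψ (s ^ 2) := by
  obtain ⟨χ, h4, h5⟩ := h.tor_two eE6 (i := nE 0) (by change Orth _ _ (nE 5); decide +kernel) rfl h3 (by
      rw [Rp, orbE6]; change ∀ r : Rt chevE6, (r : ℕ) ∈ [36, 56] → _; decide +kernel)
  obtain ⟨ψ, h4', h5'⟩ := h.tor_two eE6 (i := nE 2) (by change Orth _ _ (nE 4); decide +kernel) rfl h3 (by
      rw [Rp, orbE6]; change ∀ r : Rt chevE6, (r : ℕ) ∈ [37, 42] → _; decide +kernel)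
  refine ⟨χ, ψ, fun z hz => ?_⟩
  have h1 : H0 (stbE6 φ) θ p ≤ Hi (stbE6 φ) θ p (nE 0) ⊔ (Hi (stbE6 φ) θ p (nE 2) ⊔ (Hi (stbE6 φ) θ p (nE 1) ⊔
      Hi (stbE6 φ) θ p (nE 3))) := iSup_le fun i => by
    have : (i = nE 1 ∨ i = nE 3) ∨ symE6.nodes.SameCycle (nE 0) i ∨ symE6.nodes.SameCycle (nE 2) i := by
      revert i; decide +kernel
    rcases this with (rfl | rfl) | e | e
    exacts [le_sup_of_le_right (le_sup_of_le_right le_sup_left), le_sup_of_le_right (le_sup_of_le_right le_sup_right),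
      (Hi_congr e).le.trans le_sup_left, (Hi_congr e).le.trans (le_sup_of_le_right le_sup_left)]
  obtain ⟨a, ha, _, hb, rfl⟩ := mem_Hi_sup (sup_le (Hi_le_H0 _) (sup_le (Hi_le_H0 _) (Hi_le_H0 _))) (h1 (h.ker_le hz))
  obtain ⟨b, hb', _, hc, rfl⟩ := mem_Hi_sup (sup_le (Hi_le_H0 _) (Hi_le_H0 _)) hb
  obtain ⟨c, hc', d, hd, rfl⟩ := mem_Hi_sup (Hi_le_H0 _) hc
  obtain ⟨s, rfl⟩ := h5 ha
  obtain ⟨u, rfl⟩ := h5' hb'
  obtain ⟨t, h6, h7, h8⟩ := h.tor_one rfl (eE6 _) c hc'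
  obtain ⟨v, h6', h7', h8'⟩ := h.tor_one rfl (eE6 _) d hd
  have h9 := fun r => congrArg (fun g => ((certE6.sys F).chi g r : F)) (MonoidHom.mem_ker.1 hz)
  have m := (certE6.sys F).h_mem
  have m2 := fun a b c d => mul_mem (m a b) (m c d)
  simp only [map_mul, h4, h4', h7, h7', Stb.σ_h (eE6 _), Stb.sp, Sys.chi_mul (m _ _) (m _ _), Sys.chi_mul (m2 _ _ _ _) (m2 _ _ _ _),
    Sys.chi_mul (m2 _ _ _ _) (mul_mem (m2 _ _ _ _) (m2 _ _ _ _)), Sys.chi_h, Sys.chi_one, Units.val_mul,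
    Units.val_zpow_eq_zpow_val, Stb.fu_val, Units.val_one] at h9
  have e0 := h9 (certE6.sp (nE 0))
  have e1 := h9 (certE6.sp (nE 1))
  have e2 := h9 (certE6.sp (nE 2))
  have e3 := h9 (certE6.sp (nE 3))
  change (s : F) ^ (2 : ℤ) * φ s ^ (0 : ℤ) * ((u : F) ^ (-1 : ℤ) * φ u ^ (0 : ℤ) * ((t : F) ^ (0 : ℤ) * (v : F) ^ (0 : ℤ))) = 1 at e0
  change (s : F) ^ (0 : ℤ) * φ s ^ (0 : ℤ) * ((u : F) ^ (0 : ℤ) * φ u ^ (0 : ℤ) * ((t : F) ^ (2 : ℤ) * (v : F) ^ (-1 : ℤ))) = 1 at e1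
  change (s : F) ^ (-1 : ℤ) * φ s ^ (0 : ℤ) * ((u : F) ^ (2 : ℤ) * φ u ^ (0 : ℤ) * ((t : F) ^ (0 : ℤ) * (v : F) ^ (-1 : ℤ))) = 1 at e2
  change (s : F) ^ (0 : ℤ) * φ s ^ (0 : ℤ) * ((u : F) ^ (-1 : ℤ) * φ u ^ (-1 : ℤ) * ((t : F) ^ (-1 : ℤ) * (v : F) ^ (2 : ℤ))) = 1 at e3
  change φ t = t at h6
  have a1 := s.ne_zero
  have a2 : φ s ≠ 0 := by simp
  have a3 := t.ne_zero
  have f0 : (u : F) = s ^ 2 := by field_simp at e0; simpa using e0.symm
  have f1 : (v : F) = t ^ 2 := by field_simp at e1; simpa using e1.symm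
  have f2 : (s : F) ^ 3 = t ^ 2 := by rw [f0, f1] at e2; field_simp at e2; simpa using e2
  have f3 : (t : F) ^ 3 = (s * φ s) ^ 2 := by rw [f0, f1, map_pow] at e3; field_simp at e3; linear_combination e3
  have f4 : φ s ^ 3 = t ^ 2 := by rw [← map_pow, f2, map_pow, h6]
  have f5 : (t : F) = 1 := mul_left_cancel₀ (pow_ne_zero 8 a3) (by
    calc _ = ((t : F) ^ 3) ^ 3 := by ring
      _ = (s ^ 3 * φ s ^ 3) ^ 2 := by rw [f3]; ring
      _ = _ := by rw [f2, f4]; ring)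
  rw [f5] at f1 f2 f3 f4
  refine ⟨s, Units.ext (by simpa using f2), by linear_combination (φ s ^ 3) * f2 + f4 + (s * φ s) * f3, ?_⟩
  rw [h8 (Units.ext f5), h8' (Units.ext (by simpa using f1)), show u = s ^ 2 from Units.ext (by simpa using f0), mul_one, mul_one]

theorem kerE_dvd [Finite F] [Fact p.Prime] [CharP F p] (h : Cop (stbE6 φ) θ p K) (h3 : ∀ t, φ (φ t) = t) :
    Nat.card θ.ker ∣ 3 := by
  obtain ⟨χ, ψ, h1⟩ := kerE_cop h h3
  have h0 : ∀ z ∈ θ.ker, z ^ 3 ^ 1 = 1 := fun z hz => by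
    obtain ⟨s, g1, -, rfl⟩ := h1 z hz
    have h4 : Commute (χ s) (ψ (s ^ 2)) := mul_left_cancel ((mem_center_iff.1 (h.cen hz) (χ s)).trans (mul_assoc _ _ _))
    rw [pow_one, h4.mul_pow, ← map_pow, ← map_pow, ← pow_mul, mul_comm 2, pow_mul, g1]; simp
  choose g g1 g2 g3 using h1
  have h2 : Function.Injective fun z : θ.ker => (⟨g z z.2, g1 z z.2⟩ : rootsOfUnity 3 F) := fun a b e =>
    Subtype.ext (by rw [g3 a a.2, g3 b b.2, show g a a.2 = g b b.2 from congrArg Subtype.val e])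
  haveI := Finite.of_injective _ h2
  haveI : Fact (Nat.Prime 3) := ⟨Nat.prime_three⟩
  obtain ⟨k, hk⟩ := IsPGroup.exists_card_eq (p := 3) (G := θ.ker) fun z => ⟨1, Subtype.ext (h0 z z.2)⟩
  have h4 := (Nat.card_le_card_of_injective _ h2).trans (by
    haveI := Fintype.ofFinite F
    rw [card_rootsOfUnity_field]; exact Nat.gcd_le_left _ (by omega) : _ ≤ 3)
  rw [hk] at h4 ⊢
  exact pow_dvd_pow 3 ((Nat.pow_le_pow_iff_right (by omega)).1 (h4.trans_eq (pow_one 3).symm))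

theorem multE_three [Fintype F] {q : ℕ} (hφ : ∀ t, φ t = t ^ q) (hF : Fintype.card F = q ^ 2) (hq : 3 ∣ q + 1)
    (hK : ∀ g, (stbE6 φ).σ g = g → g ∈ K) (h3 : ∀ t, φ (φ t) = t)
    (h2 : ∀ (Γ : Type u) [Group Γ] [Finite Γ] (σ : Γ →* K), IsStemExtension σ → Nat.card σ.ker ∣ 3) :
    HasCyclicSchurMultiplier K 3 := by
  haveI := RGD.sc_finite certE6 RGD.genC_E6 (K := F)
  haveI : Fact (Nat.Prime 3) := ⟨Nat.prime_three⟩
  have e := (RGD.scKerEquiv certE6 RGD.genC_E6 RGD.tau_inj_E6).symm.trans (RGD.cenE6 (K := F))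
  have h1 : ((RGD.mSys certE6 F).lift.subgroupComap K).ker = (RGD.mSys certE6 F).lift.ker.subgroupOf _ := by
    ext; exact Subtype.ext_iff
  refine mult_of_prime (σ := (RGD.mSys certE6 F).lift.subgroupComap K) ⟨MonoidHom.subgroupComap_surjective_of_surjective _ _
    (RGD.mSys_lift_surjective certE6), fun z hz => ?_, fun z hz => ?_⟩ ?_ h2
  · rw [h1] at hz
    exact mem_center_iff.2 fun g => Subtype.ext (mem_center_iff.1 (RGD.mSys_lift_central certE6 RGD.genC_E6 hz) g)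
  · rw [h1] at hz
    obtain ⟨t, ht⟩ := (RGD.scKerEquiv certE6 RGD.genC_E6 (RGD.tau_inj_E6 (K := F))).surjective ⟨z.1, hz⟩
    obtain ⟨⟨c, hc⟩, rfl⟩ := RGD.cenE6.symm.surjective t
    have h4 : c ^ 3 = 1 := hc
    have h5 : ∀ r, ∀ c : Fˣ, c ^ 3 = 1 → (stbE6 φ).fu r c = c ^ 2 := fun r c hc => by
      obtain ⟨k, hk⟩ := hq
      refine mul_right_cancel (b := c) (Units.ext ?_)
      rw [← pow_succ, hc, Units.val_mul, Stb.fu_val]
      change φ c * c = _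
      rw [hφ, ← pow_succ, hk, pow_mul, ← Units.val_pow_eq_pow_val, hc]; simp
    have h6 : (c ^ 2) ^ 3 = 1 := by rw [← pow_mul, mul_comm, pow_mul, h4, one_pow]
    have := mul_mem (sc_h_mem RGD.genC_E6 hK eE6 (i := nE 0) (by change ∀ r ∈ _, ∀ s ∈ [certE6.sp (nE 5), (certE6.sp (nE 5)).rev], _; decide +kernel)
      rfl h3 h4) (sc_h_mem RGD.genC_E6 hK eE6 (i := nE 2) (by change ∀ r ∈ _, ∀ s ∈ [certE6.sp (nE 4), (certE6.sp (nE 4)).rev], _; decide +kernel)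
      rfl h3 h6)
    rw [← map_mul, ← map_subtype_commutator, h5 _ _ h4, h5 _ _ h6, show (c ^ 2) ^ 2 = c by
      rw [← pow_mul, pow_succ, h4, one_mul]] at this
    obtain ⟨y, hy, e⟩ := this
    have h7 : (Pi.mulSingle 0 c * Pi.mulSingle 5 (c ^ 2) * (Pi.mulSingle 2 (c ^ 2) * Pi.mulSingle 4 c) : Fin 6 → Fˣ) =
        fun i => c ^ (![1, 0, 2, 0, 1, 2] : Fin 6 → ℤ) i := by
      funext i; fin_cases i <;> simp [zpow_ofNat]
    have h8 := congrArg (RGD.sc_isChev certE6 RGD.genC_E6 (K := F)).tau h7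
    rwa [← show y = z from Subtype.ext (e.trans (h8.trans (by exact congrArg Subtype.val ht)))]
  · rw [h1, Nat.card_congr (subgroupOfEquivOfLe fun z hz => by rw [mem_comap, MonoidHom.mem_ker.1 hz]; exact one_mem _).toEquiv,
      Nat.card_congr e.toEquiv, card_rootsOfUnity_field, hF]
    exact Nat.gcd_eq_left (by simpa [Nat.sq_sub_sq q 1] using hq.mul_right (q - 1))

end Cfsg.Agent.TwM
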