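import Cfsg.Agent.TwM.Inst

set_option autoImplicit false

/-! The `p`-part of the multiplier of `³D₄(q)`, `q ≥ 3`. -/

namespace Cfsg.Agent.TwM

open Subgroup Cfsg.Agent.Cover Cfsg.Lie Cfsg.Lie.ChevalleyDatum Cfsg.Agent.Chev Cfsg.Agent.Tw Equiv
open scoped commutatorElement

variable {E : Type*} [Group E] {F : Type*} [Field F] {φ : F ≃+* F} {θ : E →* chevD4.group F}
  {K : Subgroup (chevD4.group F)} {q : ℕ}

/-- the functional -/
def fD : (Nd chevD4 → ℤ) →ₗ[ℤ] ℤ := wf chevD4 [101, 102, 104, 108]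

theorem admD : Adm (stbD4 φ) fD := by
  change (∀ r s, fD (certD4.rc r) = fD (certD4.rc s) → r = s) ∧ (∀ i, 0 < fD (certD4.rc (certD4.sp i))) ∧
    ∀ r, 0 < fD (certD4.rc r) → ∀ s, fD (certD4.rc r) ≤ fD (certD4.rc s) →
      fD (certD4.rc (triD4.ρ r)) < 2 * fD (certD4.rc (triD4.ρ s)) ∧ fD (certD4.rc (triD4.ρi r)) < 2 * fD (certD4.rc (triD4.ρi s))
  decide +kernel

theorem liveD (r : Rt chevD4) : Live (stbD4 φ) fD r ↔ (r : ℕ) ∈ [14, 18, 19, 21, 22, 23] := by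
  revert r
  change ∀ r, 0 < fD (certD4.rc r) ∧ fD (certD4.rc r) ≤ fD (certD4.rc (triD4.ρ r)) ∧
    fD (certD4.rc r) ≤ fD (certD4.rc (triD4.ρi r)) ↔ _
  decide +kernel

theorem torD (h : Stem K θ) (hK : (stbD4 φ).Good K) (hφ : ∀ t, φ t = t ^ q) (h3 : ∀ t, φ (φ (φ t)) = t) (γ : Rt chevD4) :
    Tor (certD4.sys F) θ fun s => certD4.A γ s + q * (certD4.A γ (triD4.ρ (triD4.ρ s)) + q * certD4.A γ (triD4.ρ s)) :=
  tor3 (T := stbD4 φ) (certD4.sys_φ_inj F) h (fun _ _ => fixD4 hK h3)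
    (by change ∀ r, triD4.ρ (triD4.ρ (triD4.ρ r)) = r; decide +kernel) (fun _ => hφ) (fun t => by simpa only [hφ] using h3 t) γ

/-- small exponents -/
abbrev smD (γ s : Rt chevD4) : Prop :=
  |certD4.A γ s| + |certD4.A γ (triD4.ρ (triD4.ρ s))| + |certD4.A γ (triD4.ρ s)| ∈ [(2 : ℤ), 3] ∧
    |certD4.A γ s| ≤ 2 ∧ |certD4.A γ (triD4.ρ (triD4.ρ s))| ≤ 2 ∧ |certD4.A γ (triD4.ρ s)| ≤ 2
/-- zero exponents -/
abbrev zD (γ s : Rt chevD4) : Prop :=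
  certD4.A γ s = 0 ∧ certD4.A γ (triD4.ρ (triD4.ρ s)) = 0 ∧ certD4.A γ (triD4.ρ s) = 0

theorem not_dvd3 {q a b c : ℤ} (hq : 3 ≤ q) (h : |a| + |b| + |c| ∈ [(2 : ℤ), 3] ∧ |a| ≤ 2 ∧ |b| ≤ 2 ∧ |c| ≤ 2) :
    ¬ q ^ 3 - 1 ∣ a + q * (b + q * c) := by
  obtain ⟨h, h1, h2, h3⟩ := h
  simp only [List.mem_cons, List.not_mem_nil, or_false] at h
  have h4 : |b + q * c| ≤ |b| + q * |c| := (abs_add_le _ _).trans_eq (by rw [abs_mul, abs_of_pos (a := q) (by omega)])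
  refine not_dvd_of_digits (by omega) (by_contra fun h5 => ?_) ?_
  · push Not at h5
    refine not_dvd_of_digits (m := |b| + q * |c| + 1) (q := q) (a := b) (b := c) (by omega) (by_contra fun h6 => ?_)
      (by omega) (h5.2 ▸ dvd_zero _)
    push Not at h6
    simp [h5.1, h6.1, h6.2] at h
  · have := abs_nonneg a; have := abs_nonneg b; have := abs_nonneg c
    have h5 : q * |b + q * c| ≤ q * |b| + q * q * |c| := by nlinarith
    generalize |a| = x, |b| = y, |c| = z at *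
    have h6 : x + q * y ≤ q * (3 - z) := by
      nlinarith [mul_nonneg (show 0 ≤ q by omega) (show 0 ≤ 3 - x - y - z by omega), mul_nonneg (show 0 ≤ q - 1 by omega) ‹0 ≤ x›]
    nlinarith [mul_nonneg (show 0 ≤ q * (q - 1) by nlinarith) (show 0 ≤ 2 - z by omega), sq_nonneg q]

theorem exD [Finite F] (hK : (stbD4 φ).Good K) (hφ : ∀ t, φ t = t ^ q) (hF : Nat.card F = q ^ 3) (i : Nd chevD4) :
    ∃ x ∈ K, x ∈ (certD4.sys F).U (Rp (stbD4 φ) i) ∧ x ≠ 1 :=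
  ex_of_card (d := 1) (n := q) ((Nat.one_lt_pow_iff three_ne_zero).1 (hF ▸ Finite.one_lt_card))
    (fun _ hw e => by rw [pow_one, cardUw_D4 hK hφ hF hw e]) i

theorem sepD_short [Finite F] (p : ℕ) [Fact p.Prime] [CharP F p] (h : Stem K θ) (hK : (stbD4 φ).Good K)
    (hφ : ∀ t, φ t = t ^ q) (hF : Nat.card F = q ^ 3) {r : Rt chevD4} (hr : (r : ℕ) ∈ [18, 19, 21]) :
    Sep (certD4.sys F) θ p r r := by
  have h1 : certD4.A r (triD4.ρ (triD4.ρ r)) = 0 ∧ certD4.A r (triD4.ρ r) = 0 := by revert r; decide +kernel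
  refine (torD h hK hφ (frob3 hφ hF) r).sep fun k => ?_
  obtain ⟨n, hn, e⟩ := Sys.exists_card_pow F p
  obtain ⟨a, -, rfl⟩ := (Nat.dvd_prime_pow Fact.out).1 (show q ∣ p ^ n by rw [← e, hF]; exact dvd_pow_self q three_ne_zero)
  have hp := (Fact.out : p.Prime).two_le
  obtain rfl : n = a * 3 := Nat.pow_right_injective hp (e.symm.trans (hF.trans (pow_mul _ _ _).symm))
  simp only [h1, certD4.A_self, mul_zero, add_zero]
  rcases hp.eq_or_lt with rfl | h2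
  · obtain ⟨t, ht⟩ := exists_pow_sum_ne hp e [k + 1, 1] (by simp) (by simp; omega)
    exact ⟨t, by rw [← zpow_natCast] at ht; simpa [pow_succ] using ht⟩
  · obtain ⟨t, ht⟩ := exists_pow_sum_ne hp e [k, k, 0, 0] (by simp) (by
      simp; nlinarith [show 2 ≤ p - 1 by omega, show 1 ≤ a by omega])
    exact ⟨t, by rw [← zpow_natCast] at ht; convert ht using 2; simp; ring⟩

theorem pairD_long (p : ℕ) (h : Stem K θ) (hK : (stbD4 φ).Good K) (h3 : ∀ t, φ (φ (φ t)) = t) (Q : Rt chevD4 → Subgroup E)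
    {r : Rt chevD4} (hr : (r : ℕ) ∈ [14, 22, 23]) : PairOK (certD4.sys F) θ fD p Q r r := by
  have : ∃ a b, Long r a b ∧ (triD4.ρ r = r ∧ triD4.ρ a = a ∧ triD4.ρ b = b) ∧ (triD4.ε r = 1 ∧ triD4.ε a = 1 ∧ triD4.ε b = 1) ∧
    0 < fD (certD4.rc r) := by revert r; decide +kernel
  obtain ⟨a, b, h1, h2, h4, h5⟩ := this
  have e : ∀ r, triD4.ε r = 1 → (stbD4 φ).e r = 1 := fun r h => Units.ext ((congrArg (Int.cast : ℤ → F) h).trans Int.cast_one)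
  exact pairOK_self (admD.covers_fix h hK h5 h2.1) (h1.abel h (fun g => ⟨hK.fix g, fixD4 hK h3⟩) h2
    ⟨e _ h4.1, e _ h4.2.1, e _ h4.2.2⟩ rfl)

theorem kerD_p [Finite F] [Finite E] (p : ℕ) [Fact p.Prime] [CharP F p] (h : Stem K θ) (hK : (stbD4 φ).Good K)
    (hφ : ∀ t, φ t = t ^ q) (hF : Nat.card F = q ^ 3) (hq : 3 ≤ q) (hp : IsPGroup p θ.ker) : θ.ker = ⊥ := by
  have h3 := frob3 hφ hF
  have t := torD h hK hφ h3
  have a : ∀ {γ s}, smD γ s → ¬ ((Nat.card F : ℤ) - 1) ∣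
      certD4.A γ s + q * (certD4.A γ (triD4.ρ (triD4.ρ s)) + q * certD4.A γ (triD4.ρ s)) := fun h => by
    rw [hF, Nat.cast_pow]; exact not_dvd3 (by omega) h
  refine h.ker_eq_bot_live p (certD4.sys_φ_inj F) hK (exD hK hφ hF) hp admD (fun _ => ⊥) (fun _ _ => rfl)
    (fun r hr => ?_) fun r s hr hs => ?_
  · obtain ⟨γ, hγ⟩ : ∃ γ, smD γ r := by rw [liveD] at hr; revert r; decide +kernel
    exact (t γ).root (a hγ)
  · have : (r = s ∧ ((r : ℕ) ∈ [18, 19, 21] ∨ (r : ℕ) ∈ [14, 22, 23])) ∨ ∃ γ, zD γ r ∧ smD γ s ∨ zD γ s ∧ smD γ r := by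
      rw [liveD] at hr hs; revert r s; decide +kernel
    obtain ⟨rfl, h1 | h1⟩ | ⟨γ, ⟨h1, h2⟩ | ⟨h1, h2⟩⟩ := this
    · exact Or.inl (sepD_short p h hK hφ hF h1)
    · exact pairD_long p h hK h3 _ h1
    · exact Or.inl ((t γ).sep_left (by simp [h1]) (a h2))
    · exact Or.inl ((t γ).sep_right (by simp [h1]) (a h2))

end Cfsg.Agent.TwM
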