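import Cfsg.Agent.TwM.Rk1
import Cfsg.Agent.TwM.D4a

set_option autoImplicit false

/-! The `p'`-part of the multiplier of `³D₄(q)`. -/

namespace Cfsg.Agent.TwM

open Subgroup Cfsg.Agent.Cover Cfsg.Lie Cfsg.Lie.ChevalleyDatum Cfsg.Agent.Chev Cfsg.Agent.Tw Equiv
open scoped commutatorElement

variable {E : Type*} [Group E] {F : Type*} [Field F] {φ : F ≃+* F} {θ : E →* chevD4.group F}
  {K : Subgroup (chevD4.group F)} {p : ℕ}

/-- nodes -/
abbrev nD (k : ℕ) (h : k < 4 := by decide) : Nd chevD4 := ⟨k, h⟩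

theorem kerD_cop [Finite F] [Fact p.Prime] [CharP F p] (h : Cop (stbD4 φ) θ p K) (h3 : ∀ t, φ (φ (φ t)) = t) :
    θ.ker = ⊥ := by
  refine eq_bot_iff.2 fun z hz => ?_
  have h1 : H0 (stbD4 φ) θ p ≤ Hi (stbD4 φ) θ p (nD 0) ⊔ Hi (stbD4 φ) θ p (nD 1) := iSup_le fun i => by
    have : i = nD 1 ∨ triD4.nodes.SameCycle (nD 0) i := by revert i; decide +kernel
    exact this.elim (fun e => e ▸ le_sup_right) fun e => (Hi_congr e).le.trans le_sup_left
  obtain ⟨a, ha, b, hb, rfl⟩ := mem_Hi_sup (Hi_le_H0 _) (h1 (h.ker_le hz))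
  obtain ⟨χ, h4, h5⟩ := h.tor_three eD4 (i := nD 0) (by change Orth _ _ (nD 2); decide +kernel)
    (by change Orth _ _ (nD 3); decide +kernel) rfl h3 (by
      rw [Rp, orbD4]; change ∀ r : Rt chevD4, (r : ℕ) ∈ [12, 13, 18] → _; decide +kernel)
  obtain ⟨s, rfl⟩ := h5 ha
  obtain ⟨t, h6, h7, h8⟩ := h.tor_one rfl (eD4 _) b hb
  have h9 := fun r => congrArg (fun g => ((certD4.sys F).chi g r : F)) (MonoidHom.mem_ker.1 hz)
  have m := (certD4.sys F).h_mem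
  simp only [map_mul, h4, h7, Stb.σ_h (eD4 _), Stb.sp, Sys.chi_mul (m _ _) (m _ _), Sys.chi_mul (m _ _) (mul_mem (m _ _) (m _ _)),
    Sys.chi_mul (mul_mem (m _ _) (mul_mem (m _ _) (m _ _))) (m _ _), Sys.chi_h, Sys.chi_one, Units.val_mul,
    Units.val_zpow_eq_zpow_val, Stb.fu_val, Units.val_one] at h9
  have e0 := h9 (certD4.sp (nD 0))
  have e1 := h9 (certD4.sp (nD 1))
  change (s : F) ^ (2 : ℤ) * (φ s ^ (0 : ℤ) * φ (φ s) ^ (0 : ℤ)) * (t : F) ^ (-1 : ℤ) = 1 at e0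
  change (s : F) ^ (-1 : ℤ) * (φ s ^ (-1 : ℤ) * φ (φ s) ^ (-1 : ℤ)) * (t : F) ^ (2 : ℤ) = 1 at e1
  change φ t = t at h6
  have a1 := s.ne_zero
  have a2 : φ s ≠ 0 := by simp
  have a3 : φ (φ s) ≠ 0 := by simp
  have e2 : (s : F) ^ 2 = t := by field_simp at e0; simpa using e0
  have e3 : φ s = s := by
    rw [← e2, map_pow] at h6
    rcases sq_eq_sq_iff_eq_or_eq_neg.1 h6 with e | e
    · exact e
    · simpa only [e, map_neg, neg_neg] using h3 s
  have e4 : s = 1 := by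
    rw [e3, e3, ← e2] at e1; field_simp at e1; exact Units.ext e1
  rw [e4, map_one, h8 (Units.ext (by rw [← e2, e4]; simp)), mul_one]; exact one_mem _

end Cfsg.Agent.TwM
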