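import Cfsg.Agent.TwM.Loc
import Cfsg.Agent.TwM.D4c

set_option autoImplicit false

/-! The `2`-part of the multiplier of `³D₄(2)`. -/

namespace Cfsg.Agent.TwM

open Subgroup Cfsg.Agent.Cover Cfsg.Lie Cfsg.Lie.ChevalleyDatum Cfsg.Agent.Chev Cfsg.Agent.Tw Equiv
open scoped commutatorElement

theorem sw1 {D : ChevalleyDatum} {C : Cert D} {F : Type*} [Field F] [CharP F 2] {G : Type*} [Group G] (S : Sys C F G)
    {r s v : ℕ} (h : r < D.nroots ∧ s < D.nroots ∧ s ≠ r ∧ s + r + 1 ≠ D.nroots ∧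
      (D.commTerms r s = [(v, 1, 1, 1)] ∨ D.commTerms r s = [(v, -1, 1, 1)])) (t u : F) (g : G) :
    xi S s u * (xi S r t * g) = xi S r t * (xi S s u * (xi S v (t * u) * g)) := by
  obtain ⟨h1, h2, h3, h4, h | h⟩ := h <;> rw [← mul_assoc, xi_swap S ⟨h1, h2, h3, h4, h⟩] <;>
    simp [wd_cons, wd_nil, mul_assoc, CharTwo.neg_eq]

theorem xi_inv2 {D : ChevalleyDatum} {C : Cert D} {F : Type*} [Field F] [CharP F 2] {G : Type*} [Group G] (S : Sys C F G)
    (r : ℕ) (t : F) : (xi S r t)⁻¹ = xi S r t := by rw [xi_inv, CharTwo.neg_eq]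

variable {F : Type*} [Field F] [CharP F 2]

theorem commD_cd {G : Type*} [Group G] (S : Sys certD4 F G) :
    ⁅wd S [(15, 1), (16, 1), (19, 1)], wd S [(17, 1), (20, 1), (21, 1)]⁆ = xi S 23 1 := by
  rw [← mul_one (xi S 23 1), ← mul_one ⁅_, _⁆]
  simp only [commutatorElement_def, wd_cons, wd_nil, mul_inv_rev, xi_inv2, inv_one, one_mul, mul_assoc, xi_add', mul_one (1 : F),
    CharTwo.add_self_eq_zero, xi_zero, zero_add,
    xi_comm S (r := 15) (s := 16) (by decide +kernel),
    xi_comm S (r := 15) (s := 17) (by decide +kernel),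
    xi_comm S (r := 15) (s := 19) (by decide +kernel),
    xi_comm S (r := 15) (s := 20) (by decide +kernel),
    sw1 S (r := 15) (s := 21) (v := 23) (by decide +kernel),
    xi_comm S (r := 15) (s := 23) (by decide +kernel),
    xi_comm S (r := 16) (s := 17) (by decide +kernel),
    xi_comm S (r := 16) (s := 19) (by decide +kernel),
    sw1 S (r := 16) (s := 20) (v := 23) (by decide +kernel),
    xi_comm S (r := 16) (s := 21) (by decide +kernel),
    xi_comm S (r := 16) (s := 23) (by decide +kernel),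
    sw1 S (r := 17) (s := 19) (v := 23) (by decide +kernel),
    xi_comm S (r := 17) (s := 20) (by decide +kernel),
    xi_comm S (r := 17) (s := 21) (by decide +kernel),
    xi_comm S (r := 17) (s := 23) (by decide +kernel),
    xi_comm S (r := 19) (s := 20) (by decide +kernel),
    xi_comm S (r := 19) (s := 21) (by decide +kernel),
    xi_comm S (r := 19) (s := 23) (by decide +kernel),
    xi_comm S (r := 20) (s := 21) (by decide +kernel),
    xi_comm S (r := 20) (s := 23) (by decide +kernel),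
    xi_comm S (r := 21) (s := 23) (by decide +kernel)]

theorem commD_ab {G : Type*} [Group G] (S : Sys certD4 F G) (r s t : F) :
    S.cd ⟨19, by decide⟩ ⁅wd S [(12, r), (13, s), (18, t)], xi S 14 1⁆ = t := by
  have : ∃ a b c d e f g, ⁅wd S [(12, r), (13, s), (18, t)], xi S 14 1⁆ =
      wd S [(15, a), (16, b), (17, c), (19, t), (20, d), (21, e), (22, f), (23, g)] := by
    rw [← mul_one ⁅_, _⁆]
    simp only [commutatorElement_def, wd_cons, wd_nil, mul_inv_rev, xi_inv2, inv_one, one_mul, mul_assoc, xi_add',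
      CharTwo.add_self_eq_zero, xi_zero,
      xi_comm S (r := 12) (s := 13) (by decide +kernel),
    sw1 S (r := 12) (s := 14) (v := 15) (by decide +kernel),
    xi_comm S (r := 12) (s := 15) (by decide +kernel),
    sw1 S (r := 12) (s := 16) (v := 17) (by decide +kernel),
    xi_comm S (r := 12) (s := 17) (by decide +kernel),
    xi_comm S (r := 12) (s := 18) (by decide +kernel),
    sw1 S (r := 12) (s := 19) (v := 20) (by decide +kernel),
    xi_comm S (r := 12) (s := 20) (by decide +kernel),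
    sw1 S (r := 12) (s := 21) (v := 22) (by decide +kernel),
    xi_comm S (r := 12) (s := 22) (by decide +kernel),
    xi_comm S (r := 12) (s := 23) (by decide +kernel),
    sw1 S (r := 13) (s := 14) (v := 16) (by decide +kernel),
    sw1 S (r := 13) (s := 15) (v := 17) (by decide +kernel),
    xi_comm S (r := 13) (s := 16) (by decide +kernel),
    xi_comm S (r := 13) (s := 17) (by decide +kernel),
    xi_comm S (r := 13) (s := 18) (by decide +kernel),
    sw1 S (r := 13) (s := 19) (v := 21) (by decide +kernel),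
    sw1 S (r := 13) (s := 20) (v := 22) (by decide +kernel),
    xi_comm S (r := 13) (s := 21) (by decide +kernel),
    xi_comm S (r := 13) (s := 22) (by decide +kernel),
    xi_comm S (r := 13) (s := 23) (by decide +kernel),
    xi_comm S (r := 14) (s := 15) (by decide +kernel),
    xi_comm S (r := 14) (s := 16) (by decide +kernel),
    xi_comm S (r := 14) (s := 17) (by decide +kernel),
    sw1 S (r := 14) (s := 18) (v := 19) (by decide +kernel),
    xi_comm S (r := 14) (s := 19) (by decide +kernel),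
    xi_comm S (r := 14) (s := 20) (by decide +kernel),
    xi_comm S (r := 14) (s := 21) (by decide +kernel),
    sw1 S (r := 14) (s := 22) (v := 23) (by decide +kernel),
    xi_comm S (r := 14) (s := 23) (by decide +kernel),
    xi_comm S (r := 15) (s := 16) (by decide +kernel),
    xi_comm S (r := 15) (s := 17) (by decide +kernel),
    sw1 S (r := 15) (s := 18) (v := 20) (by decide +kernel),
    xi_comm S (r := 15) (s := 19) (by decide +kernel),
    xi_comm S (r := 15) (s := 20) (by decide +kernel),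
    sw1 S (r := 15) (s := 21) (v := 23) (by decide +kernel),
    xi_comm S (r := 15) (s := 22) (by decide +kernel),
    xi_comm S (r := 15) (s := 23) (by decide +kernel),
    xi_comm S (r := 16) (s := 17) (by decide +kernel),
    sw1 S (r := 16) (s := 18) (v := 21) (by decide +kernel),
    xi_comm S (r := 16) (s := 19) (by decide +kernel),
    sw1 S (r := 16) (s := 20) (v := 23) (by decide +kernel),
    xi_comm S (r := 16) (s := 21) (by decide +kernel),
    xi_comm S (r := 16) (s := 22) (by decide +kernel),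
    xi_comm S (r := 16) (s := 23) (by decide +kernel),
    sw1 S (r := 17) (s := 18) (v := 22) (by decide +kernel),
    sw1 S (r := 17) (s := 19) (v := 23) (by decide +kernel),
    xi_comm S (r := 17) (s := 20) (by decide +kernel),
    xi_comm S (r := 17) (s := 21) (by decide +kernel),
    xi_comm S (r := 17) (s := 22) (by decide +kernel),
    xi_comm S (r := 17) (s := 23) (by decide +kernel),
    xi_comm S (r := 18) (s := 19) (by decide +kernel),
    xi_comm S (r := 18) (s := 20) (by decide +kernel),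
    xi_comm S (r := 18) (s := 21) (by decide +kernel),
    xi_comm S (r := 18) (s := 22) (by decide +kernel),
    xi_comm S (r := 18) (s := 23) (by decide +kernel),
    xi_comm S (r := 19) (s := 20) (by decide +kernel),
    xi_comm S (r := 19) (s := 21) (by decide +kernel),
    xi_comm S (r := 19) (s := 22) (by decide +kernel),
    xi_comm S (r := 19) (s := 23) (by decide +kernel),
    xi_comm S (r := 20) (s := 21) (by decide +kernel),
    xi_comm S (r := 20) (s := 22) (by decide +kernel),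
    xi_comm S (r := 20) (s := 23) (by decide +kernel),
    xi_comm S (r := 21) (s := 22) (by decide +kernel),
    xi_comm S (r := 21) (s := 23) (by decide +kernel),
    xi_comm S (r := 22) (s := 23) (by decide +kernel)]
    exact ⟨_, _, _, _, _, _, _, rfl⟩
  obtain ⟨a, b, c, d, e, f, g, h⟩ := this
  rw [h, (cd_wd S (f := Cert.lev ∅) (k := 2) (A := {r | 2 ≤ certD4.ht r}) zero_le_two (fun r h => certD4.lev_empty r ▸ h)
    (by rw [Cert.lev_empty]; decide +kernel) (by simp only [List.forall_mem_cons, Set.mem_ofPred_eq, List.not_mem_nil, false_imp_iff, implies_true, and_true]; decide +kernel)).2]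
  simp

variable {E : Type*} [Group E] {φ : F ≃+* F} {θ : E →* chevD4.group F} {K : Subgroup (chevD4.group F)}

theorem σD {r s : ℕ} (h : ∃ h : r < chevD4.nroots, (triD4.ρ ⟨r, h⟩ : ℕ) = s) (t : F) :
    (stbD4 φ).σ (xi (certD4.sys F) r t) = xi (certD4.sys F) s (φ t) := by
  obtain ⟨h, e⟩ := h
  rw [stbD4, triD4.stb_xi triD4_ok φ ⟨h, e, rfl⟩]
  rcases mul_self_eq_one_iff.1 (triD4.ε_sq ⟨r, h⟩) with e | e <;> simp [e, CharTwo.neg_eq]

variable (θ) in
/-- an invariant lift of order two -/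
def Inv2 (r : ℕ) (y : E) : Prop :=
  y * y = 1 ∧ θ y = xi (certD4.sys F) r 1 ∧ ∀ t, θ t ∈ (certD4.sys F).H → Commute t y

/-- roots -/
abbrev rD (k : ℕ) (h : k < 24 := by decide) : Rt chevD4 := ⟨k, h⟩

theorem xi_ne_one {D : ChevalleyDatum} {C : Cert D} {F : Type*} [Field F] {G : Type*} [Group G] (S : Sys C F G)
    {r : ℕ} (h : r < D.nroots) : xi S r 1 ≠ 1 := fun e => by
  simpa [cd_xi, S.cd_one] using congrArg (S.cd ⟨r, h⟩) e

variable [Finite F] (h : Stem K θ) (hK : (stbD4 φ).Good K) (hφ : ∀ t, φ t = t ^ 2) (hF : Nat.card F = 2 ^ 3)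

section
include h hK hφ

omit [Finite F] in
theorem twoD {r : ℕ} (hr : r ∈ [14, 22, 23]) {a : E} (ha : a ∈ XL (certD4.sys F) θ [r]) :
    θ a = 1 ∨ θ a = xi (certD4.sys F) r 1 := by
  have h1 : ∃ h : r < chevD4.nroots, (triD4.ρ ⟨r, h⟩ : ℕ) = r := by clear ha; revert r; decide +kernel
  obtain ⟨t, ht⟩ := mem_U_single (S := certD4.sys F) (r := ⟨r, h1.1⟩) ((certD4.sys F).U_mono (fun s hs => Fin.ext (by simpa using hs)) ha)
  have h2 := hK.fix _ (h.mem a)
  rw [ht, ← xi_eq, σD h1, hφ, xi_eq _ h1.1, xi_eq _ h1.1] at h2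
  rw [ht, ← xi_eq]
  rcases (eq_zero_or_one_of_sq_eq_self ((certD4.sys F).x_inj _ h2)) with rfl | rfl
  exacts [Or.inl (xi_zero _ _), Or.inr rfl]

omit [Finite F] in
theorem twoD' {r : ℕ} (hr : r ∈ [14, 22, 23]) {a y : E} (ha : a ∈ XL (certD4.sys F) θ [r]) (hy : θ y = xi (certD4.sys F) r 1)
    {n : E} (e : a = n * y * n⁻¹) : θ a = xi (certD4.sys F) r 1 :=
  (twoD h hK hφ hr ha).resolve_left fun e' => xi_ne_one (certD4.sys F) (r := r) (by clear ha hy; revert r; decide) (by simpa [e, hy] using e')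

omit [Finite F] in
theorem Inv2.conj {r s : ℕ} (hs : s ∈ [14, 22, 23]) (hr : r < 24) {y n : E} (hy : Inv2 θ r y) {w : Perm (Rt chevD4)}
    (hn : (certD4.sys F).Over (θ n) w) {a : ℕ → ℕ} (e : ∀ r : Rt chevD4, (w r : ℕ) = a r) (h1 : a r = s) :
    Inv2 θ s (n * y * n⁻¹) := by
  refine ⟨by simp [mul_assoc, ← mul_assoc y, hy.1], (twoD h hK hφ hs (conj_XL hn e (A := [r]) (by simp [h1])
    (by rw [mem_comap, hy.2.1]; exact xi_mem_list _ (by simp) _))).resolve_left fun e' =>
    xi_ne_one (certD4.sys F) hr (by simpa [hy.2.1] using e'), fun t ht => ?_⟩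
  have := hy.2.2 (n⁻¹ * t * n⁻¹⁻¹) (by simpa using (certD4.sys F).N_conj_H (inv_mem hn.mem_N) ht)
  simpa [mul_assoc] using this.map (MulAut.conj n)

omit [Finite F] in
theorem Inv2.rootOK {r : Rt chevD4} (hr : (r : ℕ) ∈ [14, 22, 23]) {y : E} (hy : Inv2 θ r y) :
    RootOK (certD4.sys F) θ fD (zpowers y) r := by
  have h1 : 0 < fD (certD4.rc r) ∧ triD4.ρ r = r := by clear hy; revert r; decide +kernel
  have h2 := admD.covers_fix h hK h1.1 h1.2
  refine Or.inr ⟨⟨zpowers_le.2 (h2.1 (by rw [mem_comap, hy.2.1, xi_val]; exact (certD4.sys F).x_mem_U (Set.mem_singleton r) _)), fun u hu => ?_⟩,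
    fun g hg e => ?_, le_norm fun t ht g hg => ?_⟩
  · obtain ⟨a, ha, e⟩ := h2.2 u hu
    rcases twoD h hK hφ hr ((certD4.sys F).U_mono (fun s hs => by simp [hs.symm]) ha) with e' | e'
    exacts [⟨1, one_mem _, by rw [← e, e', map_one]⟩, ⟨y, mem_zpowers y, by rw [← e, e', hy.2.1]⟩]
  · exact (mem_zpowers_invol hy.1 hg).resolve_right (by rintro rfl; simp [hy.2.1, cd_xi] at e)
  · obtain ⟨n, rfl⟩ := hg
    simp [((hy.2.2 t ht).zpow_right n).eq]

include hF

theorem sepD2 {r s : Rt chevD4} (h1 : ∀ j ∈ [(1 : ℤ), 2, 4], ¬ 7 ∣ j * (certD4.A (rD 18) r + 2 * (certD4.A (rD 18) (triD4.ρ (triD4.ρ r)) +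
    2 * certD4.A (rD 18) (triD4.ρ r))) + (certD4.A (rD 18) s + 2 * (certD4.A (rD 18) (triD4.ρ (triD4.ρ s)) +
    2 * certD4.A (rD 18) (triD4.ρ s)))) : Sep (certD4.sys F) θ 2 r s :=
  (torD h hK hφ (frob3 hφ hF) (rD 18)).sep fun k => exists_zpow_ne fun h2 => by
    have h3 : ∃ j ∈ [(1 : ℤ), 2, 4], (7 : ℤ) ∣ 2 ^ k - j := by
      clear h2
      induction k with
      | zero => simp
      | succ k ih => simp only [List.mem_cons, List.not_mem_nil, or_false, exists_eq_or_imp, exists_eq_left, pow_succ] at *; omega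
    obtain ⟨j, hj, h3⟩ := h3
    rw [hF] at h2
    refine h1 j hj ?_
    have h4 : ∀ x y : ℤ, 7 ∣ 2 ^ k * x + y → 7 ∣ j * x + y := fun x y h => by
      rw [show j * x + y = 2 ^ k * x + y - (2 ^ k - j) * x by ring]; exact dvd_sub h (h3.mul_right x)
    exact h4 _ _ h2

omit hφ hF [CharP F 2] [Finite F] in
theorem kerD {l : List ℕ} {r : Rt chevD4} (h1 : 0 < certD4.ht r ∧ (r : ℕ) ∈ l ∧ ∀ s : Rt chevD4, (s : ℕ) ∈ l →
    certD4.ht s = certD4.ht r ∧ (triD4.ρ s : ℕ) ∈ l ∧ (s = r ∨ s = triD4.ρ r ∨ s = triD4.ρ (triD4.ρ r)) ∧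
      ∀ t : Rt chevD4, (t : ℕ) ∈ l → certD4.N s t = 0) : Crd (certD4.sys F) θ (XL (certD4.sys F) θ l) r ∧
    ∀ b ∈ XL (certD4.sys F) θ l, (certD4.sys F).cd r (θ b) = 0 → θ b = 1 :=
  ⟨crd_U (f := Cert.lev ∅) h1.1.le (fun s hs => by rw [Cert.lev_empty, (h1.2.2 s hs).1]) (by rw [Cert.lev_empty]; omega),
    fun b hb => eq_one_of_cd_orb (T := stbD4 φ) h1.1 h1.2.2 h1.2.1 hb (hK.fix _ (h.mem b))⟩

theorem exists_invD : ∃ y, Inv2 θ 23 y ∧ (∀ b ∈ XL (certD4.sys F) θ [14], ∀ e ∈ XL (certD4.sys F) θ [22], ⁅b, e⁆ ∈ zpowers y) ∧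
    (∀ r ∈ [14, 22], ∀ b ∈ XL (certD4.sys F) θ [r], ∀ e ∈ XL (certD4.sys F) θ [23], Commute b e) ∧
    ∀ u ∈ Ul (certD4.sys F) θ fD 203, ∀ d ∈ XL (certD4.sys F) θ [17, 20, 21], ⁅u, d⁆ ∈ zpowers y := by
  set S := certD4.sys F
  have h3 := frob3 hφ hF
  have hc := h.cen
  have lift : ∀ g, (stbD4 φ).σ g = g → ∃ e, θ e = g := fun g e => h.surj g (fixD4 hK h3 e)
  obtain ⟨b, hb⟩ := lift (xi S 14 1) (by rw [σD (s := 14) (by decide +kernel), map_one])
  obtain ⟨e, he⟩ := lift (xi S 22 1) (by rw [σD (s := 22) (by decide +kernel), map_one])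
  obtain ⟨c, hc0⟩ := lift (wd S [(15, 1), (16, 1), (19, 1)]) (by
    simp only [S, wd_cons, wd_nil, map_mul, map_one, σD (r := 15) (s := 19) (by decide +kernel),
      σD (r := 16) (s := 15) (by decide +kernel), σD (r := 19) (s := 16) (by decide +kernel),
      xi_comm (certD4.sys F) (r := 15) (s := 19) (by decide +kernel), xi_comm (certD4.sys F) (r := 16) (s := 19) (by decide +kernel)])
  obtain ⟨d, hd⟩ := lift (wd S [(17, 1), (20, 1), (21, 1)]) (by
    simp only [S, wd_cons, wd_nil, map_mul, map_one, σD (r := 17) (s := 20) (by decide +kernel),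
      σD (r := 20) (s := 21) (by decide +kernel), σD (r := 21) (s := 17) (by decide +kernel),
      xi_comm (certD4.sys F) (r := 17) (s := 20) (by decide +kernel), xi_comm (certD4.sys F) (r := 17) (s := 21) (by decide +kernel)])
  have mb : b ∈ XL S θ [14] := by rw [mem_comap, hb]; exact xi_mem_list _ (by simp) _
  have me : e ∈ XL S θ [22] := by rw [mem_comap, he]; exact xi_mem_list _ (by simp) _
  have hy : θ ⁅b, e⁆ = xi S 23 1 := by
    rw [map_commutatorElement, hb, he, ← mul_one ⁅_, _⁆, ← mul_one (xi S 23 1)]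
    simp only [commutatorElement_def, xi_inv2, mul_assoc, sw1 S (r := 14) (s := 22) (v := 23) (by decide +kernel), xi_add',
      xi_comm S (r := 22) (s := 23) (by decide +kernel), CharTwo.add_self_eq_zero, xi_zero, one_mul]
  have my : ⁅b, e⁆ ∈ XL S θ [23] := by rw [mem_comap, hy]; exact xi_mem_list _ (by simp) _
  have a1 : ∀ r ∈ [14, 22], ∀ b ∈ XL S θ [r], ∀ e ∈ XL S θ [23], Commute b e := fun r hr x hx z hz => by
    rcases twoD h hK hφ (by simp) hz with e | e
    · exact (commute_ker hc e x).symm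
    refine commute_of_map_eq hc (commute_comm hc (a := c) (b := d) ?_ ?_) (by rw [map_commutatorElement, hc0, hd, commD_cd, e])
    · exact commute_U (B := {r | (r : ℕ) ∈ [15, 16, 19]}) (by clear hx; revert r; simp only [Set.mem_ofPred_eq]; decide +kernel) hx
        (hc0 ▸ wd_mem_list (by simp))
    · exact commute_U (B := {r | (r : ℕ) ∈ [17, 20, 21]}) (by clear hx; revert r; simp only [Set.mem_ofPred_eq]; decide +kernel) hx
        (hd ▸ wd_mem_list (by simp))
  have a2 : ∀ x ∈ XL S θ [14], ∀ z ∈ XL S θ [22], ⁅x, z⁆ ∈ zpowers ⁅b, e⁆ := fun x hx z hz => by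
    rcases twoD h hK hφ (by simp) hx with e1 | e1
    · rw [(commute_ker hc e1 z).commutator_eq]; exact one_mem _
    rcases twoD h hK hφ (by simp) hz with e2 | e2
    · rw [(commute_ker hc e2 x).symm.commutator_eq]; exact one_mem _
    rw [comm_eq_of_map_eq hc (e1.trans hb.symm) (e2.trans he.symm)]; exact mem_zpowers _
  obtain ⟨ca, ka⟩ := kerD h hK (l := [12, 13, 18]) (r := rD 18) (by decide +kernel)
  obtain ⟨cb, kb⟩ := kerD h hK (l := [14]) (r := rD 14) (by decide +kernel)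
  obtain ⟨cd, kd⟩ := kerD h hK (l := [17, 20, 21]) (r := rD 21) (by decide +kernel)
  obtain ⟨cf, kf⟩ := kerD h hK (l := [23]) (r := rD 23) (by decide +kernel)
  have a3 := comm_of_sep 2 hc cb cd (fun a ha b hb => commute_U (by simp only [Set.mem_ofPred_eq]; decide +kernel) ha hb)
    (fun a ha e b _ => commute_ker hc (kb a ha e) b) (fun a ha e b _ => (commute_ker hc (kd a ha e) b).symm)
    (sepD2 h hK hφ hF (by decide +kernel))
  have a4 := comm_of_sep 2 hc ca cf (fun a ha b hb => commute_U (by simp only [Set.mem_ofPred_eq]; decide +kernel) ha hb)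
    (fun a ha e b _ => commute_ker hc (ka a ha e) b) (fun a ha e b _ => (commute_ker hc (kf a ha e) b).symm)
    (sepD2 h hK hφ hF (by decide +kernel))
  have a5 := Ul_comm_of_sep 2 hc admD (fun e => hK.fix _ (h.mem e)) cd kd (j := 307) (by omega)
    (fun a ha b hb => commute_U (by simp only [Set.mem_ofPred_eq]; decide +kernel) ha hb)
    fun r h1 h2 => sepD2 h hK hφ hF (by rw [liveD] at h2; revert r; decide +kernel)
  refine ⟨⁅b, e⁆, ⟨?_, hy, fun t ht => ?_⟩, a2, a1, fun u hu d hd => ?_⟩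
  · have := commutatorElement_mul_left_eq_conj_mul b b e
    rw [(commute_ker hc (by rw [map_mul, hb, xi_add, CharTwo.add_self_eq_zero, xi_zero]) e).commutator_eq,
      (a1 14 (by simp) b mb _ my).eq, mul_inv_cancel_right] at this
    exact this.symm
  · rw [Commute, SemiconjBy, ← mul_inv_eq_iff_eq_mul, conjugate_commutatorElement]
    exact comm_eq_of_map_eq hc ((twoD' h hK hφ (by simp) (cb.2 t ht b mb).1 hb rfl).trans hb.symm)
      ((twoD' h hK hφ (by simp) (by simpa using Sys.H_conj_U ht me) he rfl).trans he.symm)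
  obtain ⟨m1, m2⟩ := (parD4_s h3 _).2 ⟨S.cd (rD 19) (θ u), rfl⟩
  obtain ⟨a, ha⟩ := lift _ m2
  have ma : a ∈ XL S θ [12, 13, 18] := by rwa [mem_comap, ha]
  have m3 : ⁅a, b⁆ ∈ Ul S θ fD 203 := by
    rw [Ul, mem_comap, map_commutatorElement]
    exact S.U_mono (by simp only [Set.ofPred_subset_ofPred, Cert.lev_empty]; decide +kernel) (comm_ge S (Cert.lev ∅) zero_le_one one_pos
      (S.U_mono (by simp only [Set.ofPred_subset_ofPred, Cert.lev_empty]; decide +kernel) ma)
      (S.U_mono (by simp only [Set.ofPred_subset_ofPred, Cert.lev_empty]; decide +kernel) mb))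
  have e19 : fD (certD4.rc (rD 19)) = 203 := by decide +kernel
  have m4 : ⁅a, b⁆⁻¹ * u ∈ Ul S θ fD 307 := by
    have c := Ul_add (S := S) (θ := θ) (f := fD) (r := rD 19) (by omega)
    refine Ul_le_of_dead (admD (φ := φ)).1 (j := fD (certD4.rc (rD 19)) + 1) (by omega) (by omega)
      (fun r h1 h2 => admD.covers_dead (fun e => hK.fix _ (h.mem e)) (by omega) (by rw [liveD]; revert r; decide +kernel))
      ((Ul_ker (admD (φ := φ)).1 (by omega) (e19 ▸ mul_mem (inv_mem m3) hu)).1 ?_)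
    rw [e19] at c
    have := c _ (inv_mem m3) _ hu
    have h4 := c.inv m3
    simp only at this h4
    rw [this, h4, map_commutatorElement, ha, hb, commD_ab, neg_add_cancel]
  have m5 : ⁅a⁻¹, d⁆ ∈ XL S θ [22] := by
    rw [mem_comap, map_commutatorElement]
    exact S.U_mono (by simp only [Set.ofPred_subset_ofPred]; decide +kernel) (comm_ge S (wf _ [1, -1, 1, 1]) zero_le_one one_pos
      (S.U_mono (by simp only [Set.ofPred_subset_ofPred]; decide +kernel) ((XL S θ _).inv_mem ma))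
      (S.U_mono (by simp only [Set.ofPred_subset_ofPred]; decide +kernel) hd))
  have m6 := a2 b mb _ m5
  have m7 : Commute a ⁅b, ⁅a⁻¹, d⁆⁆ := a4 a ma _ (zpowers_le.2 my m6)
  have m8 := (a3 b mb d hd).inv_left.eq
  rw [← mul_inv_cancel_left ⁅a, b⁆ u, commutatorElement_mul_left_eq_conj_mul, (a5 _ m4 d hd).commutator_eq]
  convert m6 using 1
  rw [mul_one, mul_inv_cancel, one_mul, ← m7.mul_inv_cancel]
  calc ⁅⁅a, b⁆, d⁆ = a * b * a⁻¹ * (b⁻¹ * d) * b * a * b⁻¹ * a⁻¹ * d⁻¹ := by simp only [commutatorElement_def]; group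
    _ = a * (b * (a⁻¹ * d * a * d⁻¹) * (d * b⁻¹) * a⁻¹ * d⁻¹ * a) * a⁻¹ := by rw [m8]; group
    _ = _ := by rw [← m8]; simp only [commutatorElement_def]; group

theorem kerD_two [Finite E] (hp : IsPGroup 2 θ.ker) : θ.ker = ⊥ := by
  set S := certD4.sys F
  have h3 := frob3 hφ hF
  obtain ⟨y, i3, c1, c2, c3⟩ := exists_invD h hK hφ hF
  obtain ⟨n, w, hn, e⟩ := exists_conj h hK ssD4 [1] (by decide +kernel) (by
    change ∀ r s : Rt chevD4, _ → (triD4.ρ s : ℕ) = actN _ _ (triD4.ρ r); decide +kernel)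
  obtain ⟨n', w', hn', e'⟩ := exists_conj h hK ssD4 [0, 2, 3] (by decide +kernel) (by
    change ∀ r s : Rt chevD4, _ → (triD4.ρ s : ℕ) = actN _ _ (triD4.ρ r); decide +kernel)
  have i2 := i3.conj h hK hφ (s := 22) (by simp) (by omega) hn e (by decide +kernel)
  have i1 := i2.conj h hK hφ (s := 14) (by simp) (by omega) hn' e' (by decide +kernel)
  let Q : Rt chevD4 → Subgroup E := fun r => if (r : ℕ) = 23 then zpowers y else if (r : ℕ) = 22 then zpowers (n * y * n⁻¹)
    else if (r : ℕ) = 14 then zpowers (n' * (n * y * n⁻¹) * n'⁻¹) else ⊥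
  have q : ∀ {A B : Subgroup E} {s : Rt chevD4} (t : Rt chevD4), fD (certD4.rc s) < fD (certD4.rc t) →
      (∀ a ∈ A, ∀ b ∈ B, ⁅a, b⁆ ∈ Q t) → ⁅A, B⁆ ≤ ⨆ (t) (_ : fD (certD4.rc s) < fD (certD4.rc t)), Q t :=
    fun t h1 h2 => (commutator_le.2 h2).trans (le_iSup₂_of_le t h1 le_rfl)
  have q' : ∀ {A B : Subgroup E} {s : Rt chevD4} (t : Rt chevD4), fD (certD4.rc s) < fD (certD4.rc t) →
      (∀ a ∈ A, ∀ b ∈ B, ⁅a, b⁆ ∈ Q t) → ⁅B, A⁆ ≤ ⨆ (t) (_ : fD (certD4.rc s) < fD (certD4.rc t)), Q t :=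
    fun t h1 h2 => by rw [commutator_comm]; exact q t h1 h2
  have c4 : ∀ a ∈ XL S θ [12, 13, 18], ∀ d ∈ XL S θ [17, 20, 21], ⁅a, d⁆ ∈ zpowers (n * y * n⁻¹) := fun a ha d hd => by
    obtain ⟨k, hk⟩ := c3 _ (S.U_mono (by simp only [Set.ofPred_subset_ofPred]; decide +kernel)
      (conj_XL' hn e (A := [15, 16, 19]) (by decide +kernel) ha)) _ (conj_XL' hn e (by decide +kernel) hd)
    exact ⟨k, by simp only at hk ⊢; rw [conj_zpow, hk, conjugate_commutatorElement]; simp [mul_assoc]⟩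
  have lift : ∀ g, (stbD4 φ).σ g = g → ∃ e, θ e = g := fun g e => h.surj g (fixD4 hK h3 e)
  have v : ∀ (r : Rt chevD4) (l : List ℕ), (0 < certD4.ht r ∧ ∀ s : Rt chevD4, (s : ℕ) ∈ l →
      fD (certD4.rc r) ≤ fD (certD4.rc s) ∧ certD4.ht s = certD4.ht r) → ∀ w : F → List (ℕ × F), (∀ t, (w t).map Prod.fst = l ∧
      ((w t).map fun p => if p.1 = (r : ℕ) then p.2 else 0).sum = t ∧ (stbD4 φ).σ (wd S (w t)) = wd S (w t)) →
      Covers S θ fD r (XL S θ l) := fun r l h1 w h2 =>
    ⟨comap_mono (S.U_mono fun s hs => (h1.2 s hs).1), fun u _ => by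
      obtain ⟨a, ha⟩ := lift _ (h2 (S.cd r (θ u))).2.2
      obtain ⟨h4, h5⟩ := cd_wd S (f := Cert.lev ∅) h1.1.le (A := {r | (r : ℕ) ∈ l}) (r := r) (w := w (S.cd r (θ u)))
        (fun s hs => by rw [Cert.lev_empty, (h1.2 s hs).2]) (by rw [Cert.lev_empty]; omega)
        fun p hp _ => by rw [Set.mem_ofPred_eq, ← (h2 (S.cd r (θ u))).1]; exact List.mem_map_of_mem hp
      exact ⟨a, by rwa [mem_comap, ha], by rw [ha, h5, (h2 _).2.1]⟩⟩
  have va := v (rD 18) [12, 13, 18] (by decide +kernel) (fun t => [(12, φ (φ t)), (13, φ t), (18, t)])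
    fun t => ⟨rfl, by simp, ((parD4_s h3 _).2 ⟨t, rfl⟩).2⟩
  have vd := v (rD 21) [17, 20, 21] (by decide +kernel) (fun t => [(17, φ t), (20, φ (φ t)), (21, t)]) fun t => ⟨rfl, by simp, by
    simp only [S, wd_cons, wd_nil, map_mul, map_one, σD (r := 17) (s := 20) (by decide +kernel), h3,
      σD (r := 20) (s := 21) (by decide +kernel), σD (r := 21) (s := 17) (by decide +kernel),
      xi_comm (certD4.sys F) (r := 17) (s := 20) (by decide +kernel), xi_comm (certD4.sys F) (r := 17) (s := 21) (by decide +kernel)]⟩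
  have vl : ∀ r : Rt chevD4, (r : ℕ) ∈ [14, 22, 23] → Covers S θ fD r (XL S θ [r]) := fun r hr => by
    have h1 : 0 < fD (certD4.rc r) ∧ triD4.ρ r = r := by revert r; decide +kernel
    convert admD.covers_fix h hK h1.1 h1.2 using 3
    ext; simp [Fin.ext_iff]
  have c5 : ∀ r ∈ [14, 22], ∀ b ∈ XL S θ [r], ∀ e ∈ XL S θ [23], ⁅b, e⁆ ∈ (⊥ : Subgroup E) := fun r hr a ha b hb =>
    (c2 r hr a ha b hb).commutator_eq
  have e19 : fD (certD4.rc (rD 19)) = 203 := by decide +kernel
  refine h.ker_eq_bot_live 2 (certD4.sys_φ_inj F) hK (exD hK hφ hF) hp admD Q (fun r hr => ?_) (fun r hr => ?_)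
    fun r s hr hs => ?_
  · simp only [liveD, List.mem_cons, not_or] at hr
    simp [Q, hr]
  · have : r = rD 14 ∨ r = rD 22 ∨ r = rD 23 ∨ (r : ℕ) ∈ [18, 19, 21] := by rw [liveD] at hr; revert r; decide +kernel
    obtain rfl | rfl | rfl | h1 := this
    exacts [i1.rootOK h hK hφ (by simp), i2.rootOK h hK hφ (by simp), i3.rootOK h hK hφ (by simp), by
      rw [show Q r = ⊥ by simp only [List.mem_cons, List.not_mem_nil, or_false] at h1; rcases h1 with e | e | e <;> simp [Q, e]]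
      exact (torD h hK hφ h3 (rD 18)).root (by rw [hF]; clear hr; revert r; decide +kernel)]
  · have : (r = s ∧ (r : ℕ) ∈ [14, 22, 23]) ∨ (r, s) ∈ [(rD 14, rD 22), (rD 22, rD 14), (rD 14, rD 23), (rD 23, rD 14),
      (rD 22, rD 23), (rD 23, rD 22), (rD 18, rD 21), (rD 21, rD 18), (rD 19, rD 21), (rD 21, rD 19)] ∨
      ∀ j ∈ [(1 : ℤ), 2, 4], ¬ 7 ∣ j * (certD4.A (rD 18) r + 2 * (certD4.A (rD 18) (triD4.ρ (triD4.ρ r)) +
        2 * certD4.A (rD 18) (triD4.ρ r))) + (certD4.A (rD 18) s + 2 * (certD4.A (rD 18) (triD4.ρ (triD4.ρ s)) +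
        2 * certD4.A (rD 18) (triD4.ρ s))) := by rw [liveD] at hr hs; revert r s; decide +kernel
    obtain ⟨rfl, h1⟩ | h1 | h1 := this
    · exact pairD_long 2 h hK h3 _ h1
    · simp only [List.mem_cons, List.not_mem_nil, or_false, Prod.mk.injEq] at h1
      rcases h1 with h1 | h1 | h1 | h1 | h1 | h1 | h1 | h1 | h1 | h1 <;> obtain ⟨rfl, rfl⟩ := h1
      · exact Or.inr ⟨_, _, vl _ (by simp), vl _ (by simp), q (rD 23) (by decide +kernel) c1⟩
      · exact Or.inr ⟨_, _, vl _ (by simp), vl _ (by simp), q' (rD 23) (by decide +kernel) c1⟩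
      · exact Or.inr ⟨_, _, vl _ (by simp), vl _ (by simp), (commutator_le.2 (c5 14 (by simp))).trans bot_le⟩
      · exact Or.inr ⟨_, _, vl _ (by simp), vl _ (by simp), ((commutator_comm _ _).le.trans (commutator_le.2 (c5 14 (by simp)))).trans bot_le⟩
      · exact Or.inr ⟨_, _, vl _ (by simp), vl _ (by simp), (commutator_le.2 (c5 22 (by simp))).trans bot_le⟩
      · exact Or.inr ⟨_, _, vl _ (by simp), vl _ (by simp), ((commutator_comm _ _).le.trans (commutator_le.2 (c5 22 (by simp)))).trans bot_le⟩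
      · exact Or.inr ⟨_, _, va, vd, q (rD 22) (by decide +kernel) c4⟩
      · exact Or.inr ⟨_, _, vd, va, q' (rD 22) (by decide +kernel) c4⟩
      · exact Or.inr ⟨_, _, covers_self _, vd, q (rD 23) (by decide +kernel) (e19 ▸ c3)⟩
      · exact Or.inr ⟨_, _, vd, covers_self _, q' (rD 23) (by decide +kernel) (e19 ▸ c3)⟩
    · exact Or.inl (sepD2 h hK hφ hF h1)

end

end Cfsg.Agent.TwM
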