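import Cfsg.Agent.TwM.Rk1
import Cfsg.Agent.Tw.Ree2

set_option autoImplicit false

/-! The multiplier of `²G₂(q)`, `q ≥ 27`. -/

namespace Cfsg.Agent.TwM

open Subgroup Cfsg.Agent.Cover Cfsg.Lie Cfsg.Lie.ChevalleyDatum Cfsg.Agent.Chev Cfsg.Agent.Tw Cfsg.Agent.Lang Equiv
open scoped commutatorElement

section
variable {E : Type*} [Group E] {D : ChevalleyDatum} {C : Cert D} {F : Type*} [Field F] {G : Type*} [Group G]
  {S : Sys C F G} {θ : E →* G} {K : Subgroup G}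

theorem Tor.sep_list [Finite F] {e : Rt D → ℤ} (h : Tor S θ e) {p n : ℕ} (hp : 2 ≤ p) (hF : Nat.card F = p ^ n) {r s : Rt D}
    {l l' : List ℕ} (h1 : e r = ((l.map (p ^ ·)).sum : ℕ)) (h2 : e s = ((l'.map (p ^ ·)).sum : ℕ)) (h0 : l' ≠ [])
    (h3 : l.length + l'.length < n * (p - 1)) : Sep S θ p r s := h.sep fun k => by
  obtain ⟨c, hc⟩ := exists_pow_sum_ne hp hF (l.map (k + ·) ++ l') (by simp [h0]) (by simpa)
  refine ⟨c, ?_⟩
  rw [h1, h2, ← Nat.cast_pow, ← Nat.cast_mul, ← Nat.cast_add, zpow_natCast, ← List.sum_map_mul_left]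
  simpa [Function.comp_def, pow_add] using hc

theorem Stem.ker_eq_bot_of_comm [Finite E] (h : Stem K θ) {l : ℕ} [Fact l.Prime] (hp : IsPGroup l θ.ker)
    (hc : ∀ P : Subgroup E, IsPGroup l P → ∀ a ∈ P, ∀ b ∈ P, a * b = b * a) : θ.ker = ⊥ := by
  obtain ⟨P, hP⟩ := hp.exists_le_sylow
  refine eq_bot_iff.2 fun z hz => ?_
  obtain ⟨k, hk⟩ := IsPGroup.iff_orderOf.1 hp ⟨z, hz⟩
  refine commutator_le.2 (fun a ha b hb => commutatorElement_eq_one_iff_mul_comm.2 (hc P P.isPGroup' a ha b hb))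
    (mem_commutator_of_transfer (h.cen hz) (h.stem hz) (hP hz) ?_)
  rw [(orderOf_mk z hz).symm.trans hk]
  exact ((Nat.Prime.coprime_iff_not_dvd Fact.out).2 P.not_dvd_index).pow_left k

end

section
variable {E : Type*} [Group E] {F : Type*} [Field F] [Finite F] [CharP F 3] {φ : F ≃+* F} {θ : E →* chevG2.group F}
  {K : Subgroup (chevG2.group F)} {m : ℕ}

/-- the functional -/
def fG : (Nd chevG2 → ℤ) →ₗ[ℤ] ℤ := wf chevG2 [2, 3]

/-- roots -/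
abbrev rG (k : ℕ) (h : k < 12 := by decide) : Rt chevG2 := ⟨k, h⟩

theorem torG (h : Stem K θ) (hK : ∀ g, (stbG2 φ).σ g = g → g ∈ K) (hφ : ∀ t, φ t = t ^ 3 ^ m) (h3 : ∀ t, φ (φ t) ^ 3 = t)
    (γ : Rt chevG2) : Tor (certG2.sys F) θ fun s => certG2.A γ s + 3 ^ m * (lamG2 (barG2 s) * certG2.A γ (barG2 s)) := by
  convert tor2 (T := stbG2 φ) (Q := fun r => 3 ^ m * lamG2 r) (certG2.sys_φ_inj F) h (fun _ _ => hK _) isogG2.bar_bar
    (fun r t => by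
      rw [fG2, fG2, map_pow, ← pow_mul]; exact (congrArg _ (isogG2.lam_mul r)).trans (h3 t))
    (fun r t => by rw [fG2, hφ, ← pow_mul]) γ using 3
  push_cast; rw [mul_assoc]; rfl

theorem exG (hK : (stbG2 φ).Good K) (h3 : ∀ t, φ (φ t) ^ 3 = t) (i : Nd chevG2) :
    ∃ x ∈ K, x ∈ (certG2.sys F).U (Rp (stbG2 φ) i) ∧ x ≠ 1 :=
  ex_of_card Finite.one_lt_card (fun _ hw e => cardUw_G2 hK h3 hw e) i

theorem casesG : ∀ r, certG2.Pos r → (r = rG 7 ∨ r = rG 8 ∨ r = rG 9) ∨ 0 < fG (certG2.rc r) ∧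
    (∀ s, fG (certG2.rc r) ≤ fG (certG2.rc s) → fG (certG2.rc (barG2 r)) < 2 * fG (certG2.rc (barG2 s))) ∧
    fG (certG2.rc (barG2 r)) < fG (certG2.rc r) := by
  simp only [certG2.pos_iff_val]; decide +kernel

theorem kerG_three [Finite E] (h : Stem K θ) (hG : (stbG2 φ).Good K) (hK : ∀ g, (stbG2 φ).σ g = g → g ∈ K)
    (hφ : ∀ t, φ t = t ^ 3 ^ m) (hF : Nat.card F = 3 ^ (2 * m + 1)) (hm : 1 ≤ m) (hp : IsPGroup 3 θ.ker) : θ.ker = ⊥ := by
  have h3 := frobp hφ hF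
  have t := torG h hK hφ h3
  have d := fun r (hr : _ ∧ _ ∧ _) => covers_dead (T := stbG2 φ) (f := fG) (r := r) (fun e => hG.fix _ (h.mem e)) hr.1 hr.2.1 hr.2.2
  have a : ∀ γ s (i j : ℕ), certG2.A γ s = i ∧ lamG2 (barG2 s) * certG2.A γ (barG2 s) = j →
      certG2.A γ s + 3 ^ m * (lamG2 (barG2 s) * certG2.A γ (barG2 s)) =
        (((List.replicate i 0 ++ List.replicate j m).map (3 ^ ·)).sum : ℕ) := fun γ s i j e => by simp [e.1, e.2, mul_comm]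
  have a7 := a (rG 11) (rG 7) 0 1 (by decide +kernel)
  have a8 := a (rG 11) (rG 8) 1 1 (by decide +kernel)
  have a9 := a (rG 11) (rG 9) 1 2 (by decide +kernel)
  have a9' := a (rG 7) (rG 9) 1 0 (by decide +kernel)
  have s : ∀ r s, (r = rG 7 ∨ r = rG 8 ∨ r = rG 9) → (s = rG 7 ∨ s = rG 8 ∨ s = rG 9) → Sep (certG2.sys F) θ 3 r s := by
    rintro _ _ (rfl | rfl | rfl) (rfl | rfl | rfl)
    on_goal 9 => exact (t _).sep_list (by omega) hF a9' a9' (by simp) (by simp; omega)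
    all_goals exact (t (rG 11)).sep_list (by omega) hF (by assumption) (by assumption) (by simp) (by simp; omega)
  refine h.ker_eq_bot_p (f := fG) 3 (certG2.sys_φ_inj F) hG (exG hG h3) hp (by decide +kernel) (by decide +kernel)
    (fun _ => ⊥) (fun r hr => (casesG r hr).elim (fun h1 => ?_) fun h1 => rootOK_bot (d r h1)) fun r r' hr hr' =>
      (casesG r hr).elim (fun h1 => (casesG r' hr').elim (fun h2 => Or.inl (s r r' h1 h2)) fun h2 => pairOK_right (d r' h2) r)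
        fun h1 => pairOK_left (d r h1) r'
  obtain ⟨t, h2, h3⟩ := s r r h1 h1 0
  exact Or.inl ⟨rfl, t, h2, fun e => h3 (by simp [e])⟩

end

section
variable {k : Type*} [Field k] [CharP k 3] [PerfectRing k 3] {ψ : k ≃+* k} {w : Perm (Rt chevG2)} {a : chevG2.group k}

theorem TH_other (hw : w ∈ certG2.W) (ha : a ∈ (stbG2 ψ).TH w) (r : Rt chevG2) : ∃ s, certG2.len s ≠ certG2.len r ∧
    (certG2.sys k).chi a s = (stbG2 ψ).fu r ((certG2.sys k).chi a r) :=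
  ⟨_, by
    rw [Cert.Aut.len_map (certG2.W_le_Aut hw)]
    exact (by decide +kernel : ∀ r, certG2.len (barG2 r) ≠ certG2.len r) r, ha.2 r⟩

theorem TH_reg (hw : w ∈ certG2.W) (ha : a ∈ (stbG2 ψ).TH w) {r : Rt chevG2} (h : (certG2.sys k).chi a r = 1) :
    a * a = 1 := by
  obtain ⟨s, h1, h2⟩ := TH_other hw ha r
  rw [h, map_one] at h2
  refine (certG2.sys k).eq_of_chi (certG2.sys_φ_inj k) (mul_mem ha.1 ha.1) (one_mem _) fun i => ?_
  obtain ⟨u, -, v, -, e⟩ := (by decide +kernel : ∀ r s, certG2.len s ≠ certG2.len r → ∀ i, ∃ u ∈ Finset.Icc (-6 : ℤ) 6,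
    ∃ v ∈ Finset.Icc (-6 : ℤ) 6, ∀ j, certG2.rc (certG2.sp i) j + certG2.rc (certG2.sp i) j =
      u * certG2.rc r j + v * certG2.rc s j) r s h1 i
  have h3 := (kerL _ a).add_mem ((kerL _ a).zsmul_mem ((rc_mem_kerL ha.1).2 h) u) ((kerL _ a).zsmul_mem ((rc_mem_kerL ha.1).2 h2) v)
  rw [← show certG2.rc (certG2.sp i) + certG2.rc (certG2.sp i) = u • certG2.rc r + v • certG2.rc s from funext e] at h3
  rw [Sys.chi_mul ha.1 ha.1, Sys.chi_one, (Sys.isChar_chi ha.1).eq_chr, ← Cert.chr_add]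
  exact h3

set_option synthInstance.maxSize 1000 in
theorem TH_four [IsAlgClosed k] {m : ℕ} (hψ : ∀ t, ψ t = t ^ 3 ^ m) (hw : w ∈ certG2.W) (ha : a ∈ (stbG2 ψ).TH w)
    (h : a ^ 4 = 1) : a * a = 1 := by
  haveI : NeZero ((4 : ℕ) : k) := ⟨fun h => by simpa using (CharP.cast_eq_zero_iff k 3 4).1 h⟩
  obtain ⟨z, hz⟩ := HasEnoughRootsOfUnity.exists_primitiveRoot k 4
  have h1 := hz.isUnit_unit (by omega)
  generalize (hz.isUnit (by omega)).unit = ζ at h1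
  have h2 : ∀ r, (certG2.sys k).chi a r ^ 4 = 1 := fun r => by rw [← Sys.chi_pow ha.1, h, Sys.chi_one]
  obtain ⟨u, hu, e1⟩ := h1.eq_pow_of_mem_rootsOfUnity (h2 (certG2.sp ⟨1, by decide⟩))
  obtain ⟨v, hv, e2⟩ := h1.eq_pow_of_mem_rootsOfUnity (h2 (certG2.sp ⟨0, by decide⟩))
  have h3 : ∀ r : Rt chevG2, (certG2.sys k).chi a r = ζ ^ (u * rcG2 r 1 + v * rcG2 r 0) := fun r => by
    rw [chiG2 ha.1 _ _ ⟨rfl, rfl⟩, cx, cy, ← e1, ← e2, zpow_add, zpow_mul, zpow_mul, zpow_natCast, zpow_natCast]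
  have h4 := (by decide +kernel : ∀ u : ℕ, u < 4 → ∀ v : ℕ, v < 4 → ∀ c < 4, c % 2 = 1 → (∀ r : Rt chevG2, ∃ s, certG2.len s ≠ certG2.len r ∧
    (4 : ℤ) ∣ u * rcG2 s 1 + v * rcG2 s 0 - (u * rcG2 r 1 + v * rcG2 r 0) * ((c * lamG2 r : ℕ) : ℤ)) → 4 ∣ u + u ∧ 4 ∣ v + v)
    u hu v hv (3 ^ m % 4) (Nat.mod_lt _ (by omega)) (by rw [Nat.mod_mod_of_dvd _ (by omega)]; simp [Nat.pow_mod]) fun r => by
      obtain ⟨s, h4, h5⟩ := TH_other hw ha r
      refine ⟨s, h4, (h1.zpow_eq_one_iff_dvd _).1 ?_⟩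
      rw [zpow_sub, zpow_mul, ← h3, ← h3, h5, zpow_natCast, pow_mul, ← pow_eq_pow_mod _ (h2 r), mul_inv_eq_one]
      ext; simp [Stb.fu_val, fG2, hψ]
  refine eqG2_of (mul_mem ha.1 ha.1) (one_mem _) ?_ ?_ <;>
    simp only [cx, cy, Sys.chi_mul ha.1 ha.1, Sys.chi_one, ← e1, ← e2, ← pow_add]
  exacts [(h1.pow_eq_one_iff_dvd _).2 h4.1, (h1.pow_eq_one_iff_dvd _).2 h4.2]

end

section
variable {F k : Type*} [Field F] [Finite F] [CharP F 3] [Field k] [IsAlgClosed k] [CharP k 3] [Algebra F k] {m : ℕ}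
  {φ : F ≃+* F} {ψ : k ≃+* k} (hφ : ∀ t, φ t = t ^ 3 ^ m) (hψ : ∀ t, ψ t = t ^ 3 ^ m) (hk : FrobAlg k 3)
include hφ hψ hk

theorem exists_THG {g : chevG2.group F} (h : (stbG2 φ).σ g = g) {n : ℕ} (hn : n.Coprime 3) (h1 : g ^ n = 1) :
    ∃ c w, (stbG2 ψ).LP c w ∧ c⁻¹ * io certG2 k F g * c ∈ (stbG2 ψ).TH w :=
  Stb.exists_TH hk (stein_G2 hψ) hn (by rw [← map_pow, h1, map_one]) (by rw [io_G2 hφ hψ, h])

omit hφ hψ hk [Finite F] [CharP F 3] [IsAlgClosed k] [CharP k 3] in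
theorem sq_of_conj {g : chevG2.group F} {c : chevG2.group k}
    (h : c⁻¹ * io certG2 k F g * c * (c⁻¹ * io certG2 k F g * c) = 1) : g * g = 1 :=
  io_inj certG2 (k := k) F (by simpa [mul_assoc] using congrArg (MulAut.conj c) h)

theorem sq_two {g : chevG2.group F} (h : (stbG2 φ).σ g = g) {n : ℕ} (h1 : g ^ 2 ^ n = 1) : g * g = 1 := by
  induction n generalizing g with
  | zero => simp_all
  | succ n ih =>
    have h2 : g ^ 4 = 1 := by
      rw [← ih (g := g * g) (by rw [map_mul, h]) (by rw [← pow_two, ← pow_mul, ← pow_succ', h1])]; simp [pow_succ, mul_assoc]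
    obtain ⟨c, w, h3, h4⟩ := exists_THG hφ hψ hk h (by norm_num) h2
    exact sq_of_conj (TH_four hψ h3.mem_W h4 (by rw [← inv_inv c, inv_inv c⁻¹, conj_pow, ← map_pow, h2]; simp))

variable {E : Type*} [Group E] [Finite E] {θ : E →* chevG2.group F} {K : Subgroup (chevG2.group F)}

theorem comm_odd (h : Stem K θ) (hG : (stbG2 φ).Good K) {l : ℕ} [Fact l.Prime] (h2 : l ≠ 2) (h3 : l ≠ 3) (P : Subgroup E)
    (hP : IsPGroup l P) : ∀ a ∈ P, ∀ b ∈ P, a * b = b * a := by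
  have h4 : ∀ x ∈ P, θ x * θ x = 1 → θ x = 1 := fun x hx e => by
    obtain ⟨n, hn⟩ := hP ⟨x, hx⟩
    exact (pow_eq_one_iff_of_coprime (((Nat.coprime_primes Fact.out Nat.prime_two).2 h2).pow_left n)).1
      ⟨by rw [← map_pow, show x ^ l ^ n = 1 from congrArg Subtype.val hn, map_one], (pow_two _).trans e⟩
  rcases (P.map θ).bot_or_nontrivial with h5 | h5
  · exact fun a ha b _ => (mem_center_iff.1 (h.cen ((Subgroup.map_eq_bot_iff _).1 h5 ha)) b).symm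
  haveI : Finite (P.map θ) := .of_surjective _ (θ.subgroupMap_surjective P)
  haveI := (hP.map θ).center_nontrivial
  obtain ⟨⟨⟨_, y, hy, rfl⟩, h6⟩, h7⟩ := exists_ne (1 : center (P.map θ))
  obtain ⟨n, hn⟩ := hP ⟨y, hy⟩
  obtain ⟨c, w, h8, h9⟩ := exists_THG hφ hψ hk (hG.fix _ (h.mem y)) (((Nat.coprime_primes Fact.out Nat.prime_three).2 h3).pow_left n)
    (by rw [← map_pow, show y ^ l ^ n = 1 from congrArg Subtype.val hn, map_one])
  have h10 : ∀ x ∈ P, c⁻¹ * io certG2 k F (θ x) * c ∈ (stbG2 ψ).TH w := fun x hx => (h8.fix_iff (certG2.sys_φ_inj k) (mem_tor.1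
    (mem_tor_of_commute hk rfl (mem_tor.2 h9.1) (fun r e => h7 (Subtype.ext (Subtype.ext (h4 y hy (sq_of_conj
      (TH_reg h8.mem_W h9 e)))))) (congrArg Subtype.val (mem_center_iff.1 h6 ⟨_, mem_map_of_mem θ hx⟩))))).1
      (by simp [mul_assoc, io_G2 hφ hψ, hG.fix _ (h.mem x)])
  let χ : P →* kˣ := MonoidHom.mk' (fun x => cx (c⁻¹ * io certG2 k F (θ x) * c)) fun a b => by
    rw [← Sys.chi_mul (h10 a a.2).1 (h10 b b.2).1]; simp [mul_assoc]
  haveI : Finite χ.range := .of_surjective _ χ.rangeRestrict_surjective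
  exact fun a ha b hb => congrArg Subtype.val ((MonoidHom.isMulCommutative_of_isCyclic_of_ker_le_center χ.rangeRestrict
    fun x hx => mem_center_iff.2 fun b => Subtype.ext (mem_center_iff.1 (h.cen (h4 x x.2 (sq_of_conj
      (TH_reg h8.mem_W (h10 x x.2) (congrArg Subtype.val hx))))) b)).is_comm.comm ⟨a, ha⟩ ⟨b, hb⟩)

theorem comm_two (h : Cop (stbG2 φ) θ 3 K) (hK : ∀ g, (stbG2 φ).σ g = g → g ∈ K) (hF : Nat.card F = 3 ^ (2 * m + 1))
    (h2 : ∀ z ∈ θ.ker, z * z = 1) (P : Subgroup E) (hP : IsPGroup 2 P) : ∀ a ∈ P, ∀ b ∈ P, a * b = b * a := by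
  have h3 := frobp hφ hF
  have hμ : mu φ (-1) = -1 := Units.ext (by simp [mu])
  obtain ⟨j, hj⟩ := h.surj _ (hK _ (σ_hz h3 (-1)))
  have h4 := XG_conj_hz h3 (-1) 0 1 0
  rw [hμ] at hj h4
  have hH : θ j ∈ (certG2.sys F).H := hj ▸ hz_mem _ _
  have a : ∀ e, θ e ≠ 1 → θ e * θ e = 1 → e * e = j * j := fun e e1 e2 => by
    obtain ⟨c, c1, c2⟩ := exists_conj_J hφ hψ hF hk (h.fix _ (h.mem e)) e1 e2
    obtain ⟨c, rfl⟩ := h.surj c (hK c c1)
    have h5 : c * e * c⁻¹ * j⁻¹ ∈ θ.ker := by simp [MonoidHom.mem_ker, c2, hj]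
    have h6 := mem_center_iff.1 (h.cen (show e * e ∈ θ.ker by simpa [MonoidHom.mem_ker] using e2)) c
    have h7 := (show Commute j _ from mem_center_iff.1 (h.cen h5) j).symm.mul_pow 2
    rw [inv_mul_cancel_right, pow_two, pow_two, pow_two, h2 _ h5, conj_mul, h6] at h7
    simpa using h7
  have i : Nd chevG2 := ⟨0, by decide⟩
  have hs : ∀ r, sw (stbG2 φ) i r = r.rev := fun r => by
    rw [← w0G2, sw, Set.eq_univ_of_forall (s := (stbG2 φ).orb i)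
      ((by decide +kernel : ∀ i j : Nd chevG2, Fin.revPerm.SameCycle i j) i)]
  have b : ∀ e, (certG2.sys F).Over (θ e) (sw (stbG2 φ) i) → e * e = j * j := fun e he =>
    a e (fun e1 => Stb.w0_orb_ne_one i (he.unique (e1 ▸ Sys.over_one _))) (over_sq he hs)
  obtain ⟨n, hn⟩ := h.exists_isM i
  have h5 := (xpG2 h3 h.toGood (i := i)).2 ⟨0, 1, 0, rfl⟩
  obtain ⟨x, hx, e⟩ := h.exists_X (closed_Rp i) (nil_Rp i) h5.2 h5.1
  have c := fun e => conj_X (p := 3) (e := e) (Sys.over_of_mem_H hH) (A := Rp (stbG2 φ) i) (fun _ h => h)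
  have h6 : j * x * j⁻¹ = x := h.X_inj (closed_Rp i) (nil_Rp i) (closed_Rp i) (nil_Rp i) (c x hx) hx (by
    rw [map_mul, map_mul, map_inv, e, hj, h4]; congr 1 <;> simp [pow_succ])
  have b' := fun e he => b (e * j) (map_mul θ e j ▸ Sys.Over.mul_H he hH)
  have h7 : j * (n * x * n⁻¹) * j⁻¹ = n * x * n⁻¹ := by
    calc _ = n⁻¹ * (n * j * (n * j)) * j⁻¹ * x * (n⁻¹ * (n * j * (n * j)) * j⁻¹)⁻¹ := by group
      _ = n * j⁻¹ * (j * x * j⁻¹) * (n * j⁻¹)⁻¹ := by rw [b' n hn.1, ← b n hn.1, h6]; group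
      _ = _ := by group
  obtain ⟨y, hy, y', hy', h8⟩ := h.exM (conj_X hn.1 (fun _ => sw_Rp) hx) (fun e1 => one_ne_zero (XG_eq_one.1 (by
    rw [← e, conj_eq_one_iff.1 e1, map_one])).2.1)
  generalize n * x * n⁻¹ = v at h7 h8
  have e1 : j * (y * v * y') * j⁻¹ = j * y * j⁻¹ * v * (j * y' * j⁻¹) := by nth_rw 2 [← h7]; group
  obtain ⟨e2, e3⟩ := h.M_unique hy hy' (c y hy) (c y' hy') h8.1 (e1 ▸ (h8.conj_H hH).1)
  rw [← e2, ← e3, mul_inv_eq_iff_eq_mul] at e1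
  have h9 := b' _ h8.1
  rw [mul_assoc, ← mul_assoc j, e1, ← mul_assoc, ← mul_assoc, b _ h8.1, mul_assoc, mul_eq_left] at h9
  have d : ∀ x ∈ P, x⁻¹ = x := fun x hx => inv_eq_of_mul_eq_one_left (by
    by_cases h1 : θ x = 1
    · exact h2 x h1
    obtain ⟨n, hn⟩ := hP ⟨x, hx⟩
    exact (a x h1 (sq_two hφ hψ hk (h.fix _ (h.mem x)) (n := n)
      (by rw [← map_pow, show x ^ 2 ^ n = 1 from congrArg Subtype.val hn, map_one]))).trans h9)
  exact fun a ha b hb => by rw [← d _ (mul_mem ha hb), mul_inv_rev, d a ha, d b hb]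

end

end Cfsg.Agent.TwM
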