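import Cfsg.Agent.TwM.Rk1
import Cfsg.Agent.TwM.F4a

set_option autoImplicit false

/-! The odd part of the multiplier of `²F₄(q)`. -/

namespace Cfsg.Agent.TwM

open Subgroup Cfsg.Agent.Cover Cfsg.Lie Cfsg.Lie.ChevalleyDatum Cfsg.Agent.Chev Cfsg.Agent.Tw Equiv
open scoped commutatorElement

section
variable {E : Type*} [Group E] {D : ChevalleyDatum} {C : Cert D} {F : Type*} [Field F] {G : Type*} [Group G]
  {S : Sys C F G} {T : Stb S} {θ : E →* G} {K : Subgroup G} {p : ℕ} {i : Nd D}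

theorem Hi_chi {γ : Rt D} (h : ∀ r, C.InJ (T.orb i) r → r ≠ γ.rev ∧ C.N γ r = 0) {a : E} (ha : a ∈ Hi T θ p i) :
    S.chi (θ a) γ = 1 := by
  have h1 : ∀ m, IsM T θ p i m → θ m ∈ centralizer {S.x γ 1} := by
    rintro _ ⟨-, x, hx, v, hv, x', hx', rfl⟩
    have c : ∀ {A : Set (Rt D)} {u}, (∀ r ∈ A, C.InJ (T.orb i) r) → u ∈ pLift θ p (S.U A) → θ u ∈ centralizer {S.x γ 1} :=
      fun hA hu => mem_centralizer_singleton_iff.2 (commute_U (A := {γ}) (by rintro _ rfl b hb; exact h b (hA b hb))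
        (S.x_mem_U (Set.mem_singleton γ) 1) (pLift_le_comap _ _ _ hu)).symm
    rw [map_mul, map_mul]
    exact mul_mem (mul_mem (c (fun _ h => h.2) hx) (c (fun _ h => h.2) hv)) (c (fun _ h => h.2) hx')
  have h2 : Hi T θ p i ≤ (centralizer {S.x γ 1}).comap θ := (closure_le _).2 (by
    rintro _ ⟨m, m', h, h', rfl⟩; exact mul_mem (h1 m h) (h1 m' h'))
  have h3 := Sys.H_conj_x (Hi_le_H i ha) γ 1
  rw [mem_centralizer_singleton_iff.1 (h2 ha), mul_inv_cancel_right] at h3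
  exact Units.ext (by simpa using (S.x_inj _ h3).symm)

theorem Hi_comm [Finite F] (hc : θ.ker ≤ center E) {r : Rt D} (h : ∀ a ∈ Hi T θ p i, S.chi (θ a) r = 1 → θ a = 1) :
    ∀ a ∈ Hi T θ p i, ∀ b ∈ Hi T θ p i, a * b = b * a := fun a ha b hb =>
  congrArg Subtype.val ((MonoidHom.isMulCommutative_of_isCyclic_of_ker_le_center (MonoidHom.mk'
    (fun a : Hi T θ p i => S.chi (θ a) r) fun a b => by
      rw [coe_mul, map_mul, Sys.chi_mul (Hi_le_H i a.2) (Hi_le_H i b.2)]) fun a ha =>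
        mem_center_iff.2 fun b => Subtype.ext (mem_center_iff.1 (hc (h a a.2 ha)) b)).is_comm.comm ⟨a, ha⟩ ⟨b, hb⟩)

variable (T θ p i) in
/-- conjugates of involutions -/
def Gd (y z : E) : Prop := y ∈ Xm T θ p i ∧ z ∈ Xp T θ p i ∧ z * z = 1 ∧ S.Over (θ (y * z * y⁻¹)) (sw T i)

theorem Gd.isM {y z : E} (h : Gd T θ p i y z) : IsM T θ p i (y * z * y⁻¹) :=
  ⟨h.2.2.2, _, conj_X h.2.2.2 (fun _ => sw_Rm) (inv_mem h.1), _, h.1, _, h.2.1, by group⟩

theorem Gd.sq {y z : E} (h : Gd T θ p i y z) : y * z * y⁻¹ * (y * z * y⁻¹) = 1 := by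
  rw [conj_mul, h.2.2.1]; simp

variable [Finite F] [Fact p.Prime] [CharP F p] (h : Cop T θ p K)
include h

theorem Cop.invol {v x x' : E} (h2 : v * v = 1) (hx : x ∈ Xp T θ p i) (hx' : x' ∈ Xp T θ p i)
    (ho : S.Over (θ (x * v * x')) (sw T i)) : x * v * x' * (x * v * x') = 1 := by
  have := ho.inv
  rw [C.w0_inv, ← map_inv, mul_inv_rev, mul_inv_rev, inv_eq_of_mul_eq_one_left h2, ← mul_assoc] at this
  rw [(h.M_unique hx hx' (inv_mem hx') (inv_mem hx) ho this).2, conj_mul, h2]; simp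

theorem Cop.sq_gd {v z x x' : E} (h2 : Gd T θ p i v z) (hx : x ∈ Xp T θ p i) (hx' : x' ∈ Xp T θ p i)
    (ho : S.Over (θ (x * v * x')) (sw T i)) : x * v * x' * (x * v * x') = 1 := by
  have e : v * z * v⁻¹ * v⁻¹ * (v * z * v⁻¹)⁻¹ * v * z = v * z * v⁻¹ := by group
  obtain ⟨rfl, rfl⟩ := h.M_unique hx hx' (conj_X h2.2.2.2 (fun _ => sw_Rm) (inv_mem h2.1)) h2.2.1 ho (e.symm ▸ h2.2.2.2)
  rw [e, h2.sq]

theorem Cop.sq_gd2 (hc : ∀ a ∈ Hi T θ p i, ∀ b ∈ Hi T θ p i, a * b = b * a) {y z y' z' x x' : E} (h1 : Gd T θ p i y z)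
    (h2 : Gd T θ p i y' z') (h3 : Commute z z') (hx : x ∈ Xp T θ p i) (hx' : x' ∈ Xp T θ p i)
    (ho : S.Over (θ (x * (y * y'⁻¹) * x')) (sw T i)) : x * (y * y'⁻¹) * x' * (x * (y * y'⁻¹) * x') = 1 := by
  have a1 := h1.isM
  have a2 := h2.isM
  have s1 := h1.sq
  have s2 := h2.sq
  have e1 : y = y * z * y⁻¹ * y * (y * z * y⁻¹)⁻¹ * (y * z * y⁻¹) * z⁻¹ := by group
  have e2 : y' = y' * z' * y'⁻¹ * y' * (y' * z' * y'⁻¹)⁻¹ * (y' * z' * y'⁻¹) * z'⁻¹ := by group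
  have b1 := conj_X a1.1 (fun _ => sw_Rm) h1.1
  have b2 := conj_X a2.1 (fun _ => sw_Rm) h2.1
  generalize y * z * y⁻¹ = m at *
  generalize y' * z' * y'⁻¹ = m' at *
  generalize m * y * m⁻¹ = a at *
  generalize m' * y' * m'⁻¹ = a' at *
  have a3 := a1.mul_H a2.inv
  by_cases h4 : m * (z⁻¹ * z') * m⁻¹ = 1
  · refine h.invol ?_ hx hx' ho
    have h5 := mul_mem h1.1 (inv_mem h2.1)
    rw [h.X_inj (closed_Rm i) (nil_Rm i) (closed_Rm (T := T) i) (nil_Rm i) h5 (one_mem _) (by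
      rw [map_one]
      refine S.eq_one_of_mem_Um_B (S.U_le_Um (fun _ h => h.1) (pLift_le_comap _ _ _ h5)) ?_
      have b := fun x (hx : x ∈ Xp T θ p i) => S.Up_le_B (S.U_le_Up (fun _ h => h.1) (pLift_le_comap _ _ _ hx))
      rw [show y * y'⁻¹ = a * (m * (z⁻¹ * z') * m⁻¹) * (m * m'⁻¹) * a'⁻¹ by rw [e1, e2]; group, h4, mul_one, map_mul, map_mul]
      exact mul_mem (mul_mem (b _ b1) (S.H_le_B a3)) (b _ (inv_mem b2))), mul_one]
  obtain ⟨w, hw, w', hw', a4⟩ := h.exM (conj_X a1.1 (fun _ => sw_Rp) (mul_mem (inv_mem h1.2.1) h2.2.1)) h4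
  have s3 := h.invol (by
    rw [conj_mul, h3.inv_left.symm.mul_mul_mul_comm, h2.2.2.1, ← mul_inv_rev, h1.2.2.1]; simp) hw hw' a4.1
  have e3 : (a * w⁻¹)⁻¹ * (y * y'⁻¹) * ((m * m'⁻¹)⁻¹ * w'⁻¹ * (m * m'⁻¹)⁻¹⁻¹ * a'⁻¹)⁻¹ =
      w * (m * (z⁻¹ * z') * m⁻¹) * w' * (m * m'⁻¹) := by rw [e1, e2]; group
  generalize w * (m * (z⁻¹ * z') * m⁻¹) * w' = n at *
  obtain ⟨rfl, rfl⟩ := h.M_unique hx hx' (inv_mem (mul_mem b1 (inv_mem hw))) (inv_mem (mul_mem (conj_X (Sys.over_of_mem_H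
    (by rw [map_inv]; exact inv_mem a3)) (fun _ h => h) (inv_mem hw')) (inv_mem b2))) ho (by
      rw [e3, map_mul]; exact a4.1.mul_H a3)
  rw [e3]
  calc _ = n * m * (m'⁻¹ * n * (m * m'⁻¹)) := by group
    _ = n * (m * m) * (m' * m')⁻¹ * n := by rw [hc _ (a2.inv.mul_mem a4) _ (a1.mul_mem a2.inv)]; group
    _ = 1 := by rw [s1, s2, inv_one, mul_one, mul_one, s3]

theorem Cop.inv_Hi (hc : ∀ a ∈ Hi T θ p i, ∀ b ∈ Hi T θ p i, a * b = b * a) (h1 : ∀ m, IsM T θ p i m → m * m = 1) {z : E}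
    (hz : z ∈ Hi T θ p i) (h2 : z ∈ θ.ker) : z * z = 1 := by
  obtain ⟨n, hn⟩ := h.exists_isM i
  have : n * z * n⁻¹ = z⁻¹ := by
    clear h2
    induction hz using closure_induction with
    | mem _ h =>
      obtain ⟨m, m', h, h', rfl⟩ := h
      calc _ = m * (m⁻¹ * n * (m * m')) * n⁻¹ := by group
        _ = m * m * (m' * m') * (m * m')⁻¹ := by rw [hc _ (h.inv.mul_mem hn) _ (h.mul_mem h')]; group
        _ = _ := by rw [h1 m h, h1 m' h']; group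
    | one => simp
    | mul a b ha hb h h' => rw [← conj_mul, h, h', hc a ha b hb, mul_inv_rev]
    | inv a _ h => rw [← h, conj_inv]; simp [← h, mul_assoc]
  rw [mem_center_iff.1 (h.cen h2), mul_inv_cancel_right] at this
  exact mul_eq_one_iff_eq_inv.2 this

end

variable {E : Type*} [Group E] {F : Type*} [Field F] [CharP F 2] {φ : F ≃+* F} {θ : E →* chevF4.group F}
  {K : Subgroup (chevF4.group F)} {m : ℕ}

theorem structF {G : Type*} [Group G] (S : Sys certF4 F G) : pw S [25, 27, 30] * pw S [19, 17] * (pw S [25, 27, 30])⁻¹ ∈ S.N := by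
  have e : ∀ r : Rt chevF4, xn S (chevF4.nroots - 1 - r) = xn S r * S.n r 1 * xn S r := fun r => by
    simpa [xn_val, CharTwo.neg_eq, ← xn_rev, show (-1 : Fˣ) = 1 from Units.ext (CharTwo.neg_eq _)] using S.x_rev_eq r 1
  have e1 := e (rF 30)
  have e2 := e (rF 25)
  have a : ∀ r s u : Rt chevF4, (∀ i, certF4.rc u i = certF4.rc s i - certF4.A r s * certF4.rc r i) →
      xn S u = S.n r 1 * xn S s * (S.n r 1)⁻¹ := fun r s u h => by
    rw [xn_val, xn_val, (pure_n r).2, certF4.rc_inj (show certF4.rc u = _ from (funext h).trans (certF4.rc_refl r s).symm)]; rfl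
  have a1 : S.n (rF 30) 1 * pw S [27, 22] * (S.n (rF 30) 1)⁻¹ = pw S [19, 22] := by
    have := a (rF 30) (rF 22) (rF 22) (by decide +kernel)
    simp only [pw_cons, pw_nil, mul_one, ← conj_mul, ← this, a (rF 30) (rF 27) (rF 19) (by decide +kernel)]
  have a2 : S.n (rF 30) 1 * pw S [25] * (S.n (rF 30) 1)⁻¹ = pw S [25] := by
    simp only [pw_cons, pw_nil, mul_one, ← a (rF 30) (rF 25) (rF 25) (by decide +kernel)]
  have a3 : S.n (rF 25) 1 * pw S [28, 27, 30] * (S.n (rF 25) 1)⁻¹ = pw S [27, 28, 30] := by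
    simp only [pw_cons, pw_nil, mul_one, ← conj_mul, ← a (rF 25) (rF 30) (rF 30) (by decide +kernel),
      ← a (rF 25) (rF 27) (rF 28) (by decide +kernel), ← a (rF 25) (rF 28) (rF 27) (by decide +kernel)]
  have b1 : pw S [19, 30] = pw S ([30, 27] ++ [19, 22]) := eqW_sound (by decide +kernel)
  have b2 : pw S [27, 25] = pw S ([25] ++ [27, 28, 30]) := eqW_sound (by decide +kernel)
  have b3 : pw S ([28, 27, 30] ++ [25, 30]) = pw S [25, 27, 30] := eqW_sound (by decide +kernel)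
  have b4 : pw S [25, 27, 30] * (pw S [30, 27] * pw S [25]) = 1 := by
    rw [← pw_append, ← pw_append, ← pw_nil (S := S)]; exact eqW_sound (by decide +kernel)
  convert mul_mem (S.n_mem (rF 30) 1) (S.n_mem (rF 25) 1) using 1
  generalize S.n (rF 30) 1 = N at *
  generalize S.n (rF 25) 1 = M at *
  calc _ = pw S [25, 27, 30] * (pw S [19, 30] * N * xn S 30) * (pw S [25, 27, 30])⁻¹ := by
        simp only [pw_cons, pw_nil, show xn S 17 = _ from e1]; group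
    _ = pw S [25, 27, 30] * (pw S [30, 27] * N * pw S [27, 25] * M * pw S [25, 30]) * (pw S [25, 27, 30])⁻¹ := by
        rw [b1, pw_append, ← a1]; simp only [pw_cons, pw_nil, show xn S 22 = _ from e2]; group
    _ = pw S [25, 27, 30] * (pw S [30, 27] * (N * pw S [25] * N⁻¹)) * N * M * (pw S ([28, 27, 30] ++ [25, 30]) *
        (pw S [25, 27, 30])⁻¹) := by rw [b2, pw_append, ← a3, pw_append]; group
    _ = _ := by rw [a2, b3, b4]; group

/-- nodes -/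
abbrev nF (k : ℕ) (h : k < 4 := by decide) : Nd chevF4 := ⟨k, h⟩

variable [Finite F]

theorem inJF (r : Rt chevF4) : certF4.InJ ((stbF4 φ).orb (nF 1)) r ↔ (r : ℕ) ∈ [17, 19, 20, 22, 25, 27, 28, 30] := by
  revert r; change ∀ r, (∀ j, ¬ (Fin.revPerm : Perm (Nd chevF4)).SameCycle (nF 1) j → _) ↔ _; decide +kernel

variable (h : Cop (stbF4 φ) θ 2 K) (hK : ∀ g, (stbF4 φ).σ g = g → g ∈ K) (hφ : ∀ t, φ t = t ^ 2 ^ m) (h3 : ∀ t, φ (φ t) ^ 2 = t)
include h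

theorem chiF {a : E} (ha : a ∈ Hi (stbF4 φ) θ 2 (nF 1)) : (certF4.sys F).chi (θ a) (rF 47) = 1 :=
  Hi_chi (by simp only [inJF]; decide +kernel) ha

theorem commF : ∀ a ∈ Hi (stbF4 φ) θ 2 (nF 1), ∀ b ∈ Hi (stbF4 φ) θ 2 (nF 1), a * b = b * a := by
  refine Hi_comm h.cen (r := rF 25) fun a ha h1 => ?_
  have h2 := Hi_le_H _ ha
  have a1 : ∀ r s, s = barF4 r → (certF4.sys F).chi (θ a) r = 1 → (certF4.sys F).chi (θ a) s = 1 := fun r s e h4 => by
    have := (stbF4 φ).chi_σ h2 r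
    rw [h.fix _ (h.mem a), h4, map_one] at this
    exact e ▸ this
  have a2 := (Sys.isChar_chi h2).2
  have b1 := a1 _ (rF 27) (by decide +kernel) h1
  have b2 := a2 (rF 29) (rF 44) (rF 47) (by decide +kernel)
  rw [chiF h ha, a1 _ (rF 44) (by decide +kernel) (chiF h ha), mul_one, a2 (rF 28) (rF 24) _ (by decide +kernel),
    a2 (rF 25) (rF 27) _ (by decide +kernel), h1, b1, one_mul, one_mul] at b2
  refine (certF4.sys F).eq_of_chi (certF4.sys_φ_inj F) h2 (one_mem _) fun i => ?_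
  rw [Sys.chi_one]
  fin_cases i
  exacts [a1 (rF 24) _ (by decide +kernel) b2.symm, b1, h1, b2.symm]

include hK hφ h3

theorem gdF {n : E} (hn : IsM (stbF4 φ) θ 2 (nF 1) n) {s : F} (hs : s ≠ 0) : ∃ y z, θ y = XF φ s 0 ∧
    θ z ∈ (certF4.sys F).U {r | (r : ℕ) ∈ [17, 19]} ∧ y ∈ Xp (stbF4 φ) θ 2 (nF 1) ∧
      Gd (stbF4 φ) θ 2 (nF 1) (n * y * n⁻¹) (n * z * n⁻¹) := by
  set S := certF4.sys F
  have a1 := σ_pwF (φ := φ) (l := [25, 27, 30]) (by decide +kernel)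
  have a2 := σ_pwF (φ := φ) (l := [19, 17]) (by decide +kernel)
  have b1 : pw S [25, 27, 30] ∈ S.U (Rp (stbF4 φ) (nF 1)) := pw_mem_U (by simp only [Set.mem_ofPred_eq, inJF, certF4.pos_iff_val]; decide +kernel)
  have b2 : pw S [19, 17] ∈ S.U (Rm (stbF4 φ) (nF 1)) := pw_mem_U (by simp only [Set.mem_ofPred_eq, inJF, certF4.pos_iff_val]; decide +kernel)
  obtain ⟨y, hy, ey⟩ := h.exists_X (closed_Rp _) (nil_Rp _) (hK _ a1) b1
  obtain ⟨z, hz, ez⟩ := h.exists_X (closed_Rm _) (nil_Rm _) (hK _ a2) b2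
  obtain ⟨t, ht, e⟩ := torF h.toStem hK hφ h3 (rF 46) (Units.mk0 s hs)
  have o := Sys.over_of_mem_H ht
  have h1 : S.Over (θ (y * z * y⁻¹)) (sw (stbF4 φ) (nF 1)) := by
    rw [map_mul, map_mul, map_inv, ey, ez]
    refine over_sw b1 b2 (inv_mem b1) (fun e => ?_) (structF S) (by rw [map_mul, map_mul, map_inv, a1, a2])
    have := S.mem_of_x_mem_U (Cert.closed_singleton (rF 17)) (Cert.nil_of_neg (by rintro _ rfl; rw [certF4.pos_iff_val]; decide +kernel)) (r := rF 19)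
      one_ne_zero (by rw [eq_inv_of_mul_eq_one_left (show S.x (rF 19) 1 * (S.x (rF 17) 1 * 1) = 1 from e), mul_one]
                      exact inv_mem (S.x_mem_U (Set.mem_singleton _) 1))
    exact absurd this (by decide)
  refine ⟨t * y * t⁻¹, t * z * t⁻¹, ?_, ?_, conj_X o (fun _ h => h) hy, conj_X hn.1 (fun _ => sw_Rp) (conj_X o (fun _ h => h) hy),
    conj_X hn.1 (fun _ => sw_Rm) (conj_X o (fun _ h => h) hz), ?_, ?_⟩
  · rw [map_mul, map_mul, map_inv, ey, show pw S [25, 27, 30] = XF φ 1 0 by simp [XF, wd_cons, wd_nil, xi_zero, pw_cons, pw_nil]; rfl,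
      XF_conj h.toGood h3 (h.mem t) ht (s := s) (by
        simp [e, show certF4.A (rF 46) (rF 25) = 1 by decide +kernel, show certF4.A (rF 46) (barF4 (rF 25)) = 0 by decide +kernel]), mul_one, mul_zero]
  · rw [map_mul, map_mul, map_inv, ez]; exact Sys.H_conj_U ht (pw_mem_U (by simp))
  · rw [conj_mul, conj_mul, h.X_inj (closed_Rm _) (nil_Rm _) (closed_Rm (T := stbF4 φ) (nF 1)) (nil_Rm _) (mul_mem hz hz) (one_mem _)
      (by rw [map_mul, ez, ← pw_append, map_one, ← pw_nil (S := S)]; exact eqW_sound (by decide +kernel))]; simp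
  · simpa [mul_assoc] using (hn.1.mul (((o.mul h1).mul o.inv).mul hn.1.inv))

theorem sqF (x : E) (hx : IsM (stbF4 φ) θ 2 (nF 1) x) : x * x = 1 := by
  obtain ⟨n, hn⟩ := h.exists_isM (nF 1)
  obtain ⟨ho, a, ha, v, hv, b, hb, rfl⟩ := hx
  have hu := conj_X hn.inv.1 (fun _ => sw_Rm) hv
  obtain ⟨u, rfl⟩ : ∃ u, v = n * u * n⁻¹ := ⟨n⁻¹ * v * n, by group⟩
  rw [show n⁻¹ * (n * u * n⁻¹) * n⁻¹⁻¹ = u by group] at hu
  obtain ⟨t, w, e⟩ := (parF4_1 h3 (θ u)).1 ⟨by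
    have := pLift_le_comap _ _ _ hu
    rwa [Rp, orbF4] at this, h.fix _ (h.mem u)⟩
  change θ u = XF φ t w at e
  have c := fun {a b} => h.X_inj (a := a) (b := b) (closed_Rp (T := stbF4 φ) (nF 1)) (nil_Rp _) (closed_Rp (T := stbF4 φ) (nF 1)) (nil_Rp _)
  by_cases ht : t = 0
  · exact h.invol (by rw [conj_mul, c (mul_mem hu hu) (one_mem _) (by
      rw [map_mul, e, XF_sq h3, ht, zero_mul, XF_zero, map_one])]; simp) ha hb ho
  have h4 : φ t ≠ 0 := by simpa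
  have h5 : XF φ t w * XF φ (w / φ t) 0 = XF φ (t + w / φ t) 0 := by
    rw [XF_mul h3, div_mul_cancel₀ _ h4, add_zero, CharTwo.add_self_eq_zero]
  by_cases h1 : w / φ t = 0
  · obtain ⟨y, z, h6, -, h7, h8⟩ := gdF h hK hφ h3 hn ht
    obtain rfl := c hu h7 (by rw [h6, e]; simpa [h1, XF_zero] using h5)
    exact h.sq_gd h8 ha hb ho
  obtain ⟨y', z', g6, g9, g7, g8⟩ := gdF h hK hφ h3 hn h1
  by_cases h2 : t + w / φ t = 0
  · obtain rfl := c hu (inv_mem g7) (by rw [map_inv, g6, e, eq_inv_iff_mul_eq_one, h5, h2, XF_zero])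
    have := h.sq_gd g8 (inv_mem hb) (inv_mem ha) (by simpa [mul_assoc, certF4.w0_inv] using ho.inv)
    rw [← inv_eq_one, ← this]; group
  obtain ⟨y, z, h6, h9, h7, h8⟩ := gdF h hK hφ h3 hn h2
  obtain rfl := c hu (mul_mem h7 (inv_mem g7)) (by rw [map_mul, map_inv, g6, h6, e, ← h5, mul_inv_cancel_right])
  rw [show n * (y * y'⁻¹) * n⁻¹ = n * y * n⁻¹ * (n * y' * n⁻¹)⁻¹ by group] at ho ⊢
  refine h.sq_gd2 (commF h) h8 g8 (c (mul_mem h8.2.1 g8.2.1) (mul_mem g8.2.1 h8.2.1) ?_) ha hb ho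
  rw [conj_mul, conj_mul]
  simp only [map_mul, (commute_Up 2 (by decide +kernel) h9 g9).eq]

theorem kerF_cop : θ.ker = ⊥ := by
  refine eq_bot_iff.2 fun z hz => ?_
  have h1 : H0 (stbF4 φ) θ 2 ≤ Hi (stbF4 φ) θ 2 (nF 0) ⊔ Hi (stbF4 φ) θ 2 (nF 1) := iSup_le fun i => by
    have : (Fin.revPerm : Perm (Nd chevF4)).SameCycle (nF 0) i ∨ (Fin.revPerm : Perm (Nd chevF4)).SameCycle (nF 1) i := by
      revert i; decide +kernel
    exact this.elim (fun e => (Hi_congr e).le.trans le_sup_left) fun e => (Hi_congr e).le.trans le_sup_right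
  obtain ⟨a, ha, b, hb, rfl⟩ := mem_Hi_sup (Hi_le_H0 _) (h1 (h.ker_le hz))
  obtain ⟨χ, h4, h5⟩ := h.tor_two eF4 (i := nF 0) (by change Orth _ _ (nF 3); decide +kernel) rfl
    (fun t => by rw [fF4, fF4, map_pow]; exact (pow_one _).trans (h3 t)) (by
      rw [Rp, orbF4]; change ∀ r : Rt chevF4, (r : ℕ) ∈ [24, 33] → _; decide +kernel)
  obtain ⟨s, rfl⟩ := h5 ha
  have h9 := congrArg (fun g => (certF4.sys F).chi g (rF 47)) (MonoidHom.mem_ker.1 hz)
  have k := (certF4.sys F).h_mem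
  simp only [map_mul, h4, Stb.σ_h (eF4 _), Stb.sp, Sys.chi_mul (k _ _) (k _ _), Sys.chi_mul (mul_mem (k _ _) (k _ _)) (Hi_le_H _ hb),
    chiF h hb, Sys.chi_h, Sys.chi_one] at h9
  change s ^ (0 : ℤ) * _ ^ (1 : ℤ) * 1 = 1 at h9
  rw [zpow_zero, zpow_one, one_mul, mul_one, Units.ext_iff, Stb.fu_val, Units.val_one,
    map_eq_one_iff _ (RingEquiv.injective _), Units.val_eq_one] at h9
  subst h9
  rw [map_one, one_mul] at hz ⊢
  exact h.tf b hz (by rw [pow_two, h.inv_Hi (commF h) (sqF h hK hφ h3) hb hz])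

end Cfsg.Agent.TwM
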